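import Mathlib
import Cfsg.Agent.Lib.Classical.Herm.Block
import Cfsg.Agent.Lib.Classical.Elusive.Inv

/-!
# Nondegenerate invariant subspaces of the standard Hermitian space
-/

set_option autoImplicit false
set_option linter.unusedSectionVars false
set_option linter.unusedSimpArgs false
set_option linter.unusedVariables false
set_option linter.style.haveILetI false

namespace Cfsg.Agent.Lib.Classical.ElusiveU.Form

open Module Polynomial
open Cfsg Cfsg.Agent.Lib.Classical.Herm.Basic Cfsg.Agent.Lib.Classical.Herm.Form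
  Cfsg.Agent.Lib.Classical.Herm.Block Cfsg.Agent.Lib.Classical.Elusive.Inv

variable {F : Type*} [Field F] [Fintype F] {q n : ℕ}

/-- Nondegenerate subspaces. -/
def Nd (q : ℕ) (W : Submodule F (Fin n → F)) : Prop :=
  ∀ u ∈ W, u ≠ 0 → ∃ v ∈ W, hermForm n F q u v ≠ 0

/-- Isometries. -/
def Iso (q : ℕ) (T : Module.End F (Fin n → F)) : Prop :=
  ∀ u v, hermForm n F q (T u) (T v) = hermForm n F q u v

/-- The orthogonal complement. -/
def perp (q : ℕ) (W : Submodule F (Fin n → F)) : Submodule F (Fin n → F) where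
  carrier := {x | ∀ w ∈ W, hermForm n F q x w = 0}
  add_mem' := by
    intro a b ha hb w hw
    rw [hermForm_add_left, ha w hw, hb w hw, add_zero]
  zero_mem' := by
    intro w hw
    exact hermForm_zero_left n w
  smul_mem' := by
    intro c x hx w hw
    rw [hermForm_smul_left, hx w hw, mul_zero]

theorem mem_perp {W : Submodule F (Fin n → F)} {x : Fin n → F} :
    x ∈ perp q W ↔ ∀ w ∈ W, hermForm n F q x w = 0 := Iff.rfl

theorem herm_eq_zero_symm (hF : Fintype.card F = q ^ 2) {u v : Fin n → F}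
    (h : hermForm n F q u v = 0) : hermForm n F q v u = 0 := by
  rw [← hermForm_pow_q hF, h, zero_pow_q hF]

theorem bot_nd : Nd q (⊥ : Submodule F (Fin n → F)) := by
  intro u hu h0
  exact absurd ((Submodule.mem_bot F).1 hu) h0

theorem top_nd (hF : Fintype.card F = q ^ 2) : Nd q (⊤ : Submodule F (Fin n → F)) := by
  intro u _ hu
  by_contra hcon
  push Not at hcon
  exact hu (hermForm_nondegenerate_left hF n u fun v => hcon v trivial)

/-- A nondegenerate subspace has an anisotropic vector. -/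
theorem exists_aniso (hF : Fintype.card F = q ^ 2) {S : Submodule F (Fin n → F)} (hS : Nd q S)
    (h0 : S ≠ ⊥) : ∃ v ∈ S, hermForm n F q v v ≠ 0 := by
  by_contra hcon
  push Not at hcon
  obtain ⟨ξ, hξ⟩ : ∃ ξ : F, ξ ^ q ≠ ξ := by
    by_contra hc
    push Not at hc
    apply sigma_ne_id hF
    ext x
    exact hc x
  obtain ⟨u, hu, hu0⟩ := (Submodule.ne_bot_iff S).1 h0
  obtain ⟨v, hv, huv⟩ := hS u hu hu0
  have hkey : ∀ c : F, c ^ q * hermForm n F q u v + c * hermForm n F q v u = 0 := by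
    intro c
    have h1 := hcon (u + c • v) (S.add_mem hu (S.smul_mem c hv))
    rw [hermForm_add_left, hermForm_add_right hF, hermForm_add_right hF, hermForm_smul_left,
      hermForm_smul_left, hermForm_smul_right, hermForm_smul_right, hcon u hu, hcon v hv] at h1
    linear_combination h1
  have h1 := hkey 1
  have h2 := hkey ξ
  rw [one_pow, one_mul, one_mul] at h1
  apply huv
  have h3 : (ξ ^ q - ξ) * hermForm n F q u v = 0 := by
    linear_combination h2 - ξ * h1
  exact (mul_eq_zero.1 h3).resolve_left (sub_ne_zero.2 hξ)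

theorem inf_perp_eq_bot {W : Submodule F (Fin n → F)} (hW : Nd q W) : W ⊓ perp q W = ⊥ := by
  rw [eq_bot_iff]
  rintro x ⟨hx1, hx2⟩
  by_contra h0
  obtain ⟨v, hv, hxv⟩ := hW x hx1 h0
  exact hxv (hx2 v hv)

/-- The orthogonal projection. -/
theorem exists_decomp (hF : Fintype.card F = q ^ 2) {W : Submodule F (Fin n → F)} (hW : Nd q W)
    (x : Fin n → F) : ∃ w ∈ W, x - w ∈ perp q W := by
  classical
  obtain ⟨f, hf, hfW, hfs⟩ := exists_frame_of_nondeg hF W rfl (by
    intro u hu h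
    by_contra h0
    obtain ⟨v, hv, huv⟩ := hW u hu h0
    exact huv (h v hv))
  refine ⟨∑ i, hermForm n F q x (f i) • f i, Submodule.sum_mem _ fun i _ => W.smul_mem _ (hfW i), ?_⟩
  intro w hw
  obtain ⟨c, rfl⟩ := hfs w hw
  have h1 : ∀ j, hermForm n F q (x - ∑ i, hermForm n F q x (f i) • f i) (f j) = 0 := by
    intro j
    rw [sub_eq_add_neg, hermForm_add_left, ← neg_one_smul F, hermForm_smul_left, hermForm_sum_left]
    rw [Finset.sum_eq_single j]
    · rw [hf j j]
      simp
    · intro i _ hij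
      rw [hf i j, if_neg hij, mul_zero]
    · intro h
      exact absurd (Finset.mem_univ j) h
  rw [hermForm_sum_right hF]
  refine Finset.sum_eq_zero fun j _ => ?_
  rw [h1 j, mul_zero]

theorem sup_perp_eq {W S : Submodule F (Fin n → F)} (hF : Fintype.card F = q ^ 2) (hW : Nd q W)
    (hWS : W ≤ S) : W ⊔ (S ⊓ perp q W) = S := by
  apply le_antisymm
  · exact sup_le hWS inf_le_left
  · intro x hx
    obtain ⟨w, hw, hxw⟩ := exists_decomp hF hW x
    have h1 : x = w + (x - w) := by abel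
    rw [h1]
    exact Submodule.add_mem_sup hw ⟨S.sub_mem hx (hWS hw), hxw⟩

theorem finrank_perp {W S : Submodule F (Fin n → F)} (hF : Fintype.card F = q ^ 2) (hW : Nd q W)
    (hWS : W ≤ S) : finrank F W + finrank F ↥(S ⊓ perp q W) = finrank F S := by
  have h1 := Submodule.finrank_sup_add_finrank_inf_eq W (S ⊓ perp q W)
  have h2 : W ⊓ (S ⊓ perp q W) = ⊥ := by
    rw [eq_bot_iff, ← inf_perp_eq_bot hW]
    exact inf_le_inf_left _ inf_le_right
  rw [sup_perp_eq hF hW hWS, h2, finrank_bot, add_zero] at h1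
  exact h1.symm

theorem nd_perp {W S : Submodule F (Fin n → F)} (hF : Fintype.card F = q ^ 2) (hW : Nd q W)
    (hS : Nd q S) (hWS : W ≤ S) : Nd q (S ⊓ perp q W) := by
  rintro u ⟨hu1, hu2⟩ hu0
  obtain ⟨v, hv, huv⟩ := hS u hu1 hu0
  obtain ⟨w, hw, hvw⟩ := exists_decomp hF hW v
  refine ⟨v - w, ⟨S.sub_mem hv (hWS hw), hvw⟩, ?_⟩
  intro h0
  apply huv
  have h1 : v = w + (v - w) := by abel
  rw [h1, hermForm_add_right hF, hu2 w hw, h0, add_zero]

theorem nd_sup {W W' : Submodule F (Fin n → F)} (hF : Fintype.card F = q ^ 2) (hW : Nd q W)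
    (hW' : Nd q W') (hle : W' ≤ perp q W) : Nd q (W ⊔ W') := by
  intro u hu hu0
  obtain ⟨a, ha, b, hb, rfl⟩ := Submodule.mem_sup.1 hu
  have hb' : ∀ w ∈ W, hermForm n F q b w = 0 := hle hb
  by_cases ha0 : a = 0
  · subst ha0
    rw [zero_add] at hu0 ⊢
    obtain ⟨v, hv, hbv⟩ := hW' b hb hu0
    exact ⟨v, Submodule.mem_sup_right hv, hbv⟩
  · obtain ⟨v, hv, hav⟩ := hW a ha ha0
    refine ⟨v, Submodule.mem_sup_left hv, ?_⟩
    rw [hermForm_add_left, hb' v hv, add_zero]
    exact hav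

theorem finrank_sup_perp {W W' : Submodule F (Fin n → F)} (hW : Nd q W) (hle : W' ≤ perp q W) :
    finrank F ↥(W ⊔ W') = finrank F W + finrank F W' := by
  have h1 := Submodule.finrank_sup_add_finrank_inf_eq W W'
  have h2 : W ⊓ W' = ⊥ := by
    rw [eq_bot_iff, ← inf_perp_eq_bot hW]
    exact inf_le_inf_left _ hle
  rw [h2, finrank_bot, add_zero] at h1
  exact h1

theorem Iso.injective (hF : Fintype.card F = q ^ 2) {T : Module.End F (Fin n → F)} (hT : Iso q T) :
    Function.Injective T := by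
  rw [injective_iff_map_eq_zero]
  intro x hx
  apply hermForm_nondegenerate_left hF n
  intro v
  rw [← hT x v, hx, hermForm_zero_left]

theorem Iso.surjective (hF : Fintype.card F = q ^ 2) {T : Module.End F (Fin n → F)} (hT : Iso q T) :
    Function.Surjective T :=
  LinearMap.injective_iff_surjective.1 (hT.injective hF)

theorem Iso.pow {T : Module.End F (Fin n → F)} (hT : Iso q T) (k : ℕ) : Iso q (T ^ k) := by
  induction k with
  | zero => intro u v; simp
  | succ k ih =>
    intro u v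
    rw [pow_succ, Module.End.mul_apply, Module.End.mul_apply, ih, hT]

/-- An isometry maps an invariant subspace onto itself. -/
theorem Iso.surj_on (hF : Fintype.card F = q ^ 2) {T : Module.End F (Fin n → F)} (hT : Iso q T)
    {W : Submodule F (Fin n → F)} (hW : IsInv T W) {w : Fin n → F} (hw : w ∈ W) :
    ∃ w' ∈ W, T w' = w := by
  let R : W →ₗ[F] W := T.restrict hW
  have hinj : Function.Injective R := by
    intro a b hab
    apply Subtype.ext
    apply hT.injective hF
    exact congrArg Subtype.val hab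
  obtain ⟨a, ha⟩ := (LinearMap.injective_iff_surjective.1 hinj) ⟨w, hw⟩
  exact ⟨a.1, a.2, congrArg Subtype.val ha⟩

theorem inv_perp (hF : Fintype.card F = q ^ 2) {T : Module.End F (Fin n → F)} (hT : Iso q T)
    {W : Submodule F (Fin n → F)} (hW : IsInv T W) : IsInv T (perp q W) := by
  intro x hx w hw
  obtain ⟨w', hw', rfl⟩ := hT.surj_on hF hW hw
  rw [hT]
  exact hx w' hw'

/-- Induction over orthogonal decompositions. -/
theorem decomp_ind (hF : Fintype.card F = q ^ 2) {T : Module.End F (Fin n → F)} (hT : Iso q T)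
    (A : Submodule F (Fin n → F) → Prop)
    (hA : ∀ S, IsInv T S → Nd q S → S ≠ ⊥ → ∃ W ≤ S, IsInv T W ∧ Nd q W ∧ W ≠ ⊥ ∧ A W)
    (Q : Submodule F (Fin n → F) → Prop) (h0 : Q ⊥)
    (hQ : ∀ W S', A W → IsInv T W → Nd q W → W ≠ ⊥ → IsInv T S' → Nd q S' → S' ≤ perp q W → Q S' → Q (W ⊔ S')) :
    ∀ S, IsInv T S → Nd q S → Q S := by
  intro S
  induction hk : finrank F S using Nat.strong_induction_on generalizing S with
  | _ k ih =>
    intro hS hSn
    by_cases hS0 : S = ⊥
    · rw [hS0]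
      exact h0
    obtain ⟨W, hWS, hWi, hWn, hW0, hWA⟩ := hA S hS hSn hS0
    have h1 := finrank_perp hF hWn hWS
    have h2 : 0 < finrank F W := by
      rw [Nat.pos_iff_ne_zero, Ne, Submodule.finrank_eq_zero]
      exact hW0
    have h3 := ih _ (by omega) (S ⊓ perp q W) rfl (hS.inf (inv_perp hF hT hWi)) (nd_perp hF hWn hSn hWS)
    have h4 := hQ W _ hWA hWi hWn hW0 (hS.inf (inv_perp hF hT hWi)) (nd_perp hF hWn hSn hWS) inf_le_right h3
    rwa [sup_perp_eq hF hWn hWS] at h4

/-- The subsets of a decomposition. -/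
def Real (q : ℕ) (T : Module.End F (Fin n → F)) (S : Submodule F (Fin n → F)) (μ : Multiset ℕ) : Prop :=
  μ.sum = finrank F S ∧ ∀ ν ≤ μ, ∃ W ≤ S, IsInv T W ∧ Nd q W ∧ finrank F W = ν.sum

theorem exists_real (hF : Fintype.card F = q ^ 2) {T : Module.End F (Fin n → F)} (hT : Iso q T)
    (P : ℕ → Prop)
    (hA : ∀ S, IsInv T S → Nd q S → S ≠ ⊥ → ∃ W ≤ S, IsInv T W ∧ Nd q W ∧ W ≠ ⊥ ∧ P (finrank F W)) :
    ∀ S, IsInv T S → Nd q S → ∃ μ : Multiset ℕ, (∀ a ∈ μ, P a) ∧ Real q T S μ := by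
  apply decomp_ind hF hT (fun W => P (finrank F W)) hA
  · refine ⟨0, by simp, by simp, ?_⟩
    intro ν hν
    rw [Multiset.le_zero.1 hν]
    exact ⟨⊥, le_rfl, isInv_bot T, bot_nd, by simp⟩
  · rintro W S' hP hWi hWn hW0 hS'i hS'n hle ⟨μ, hμ, hs, hr⟩
    refine ⟨finrank F W ::ₘ μ, ?_, ?_, ?_⟩
    · intro a ha
      rcases Multiset.mem_cons.1 ha with rfl | ha
      · exact hP
      · exact hμ a ha
    · rw [Multiset.sum_cons, hs, finrank_sup_perp hWn hle]
    · intro ν hν
      by_cases hd : finrank F W ∈ ν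
      · obtain ⟨ν', rfl⟩ := Multiset.exists_cons_of_mem hd
        obtain ⟨W', h1, h2, h3, h4⟩ := hr ν' ((Multiset.cons_le_cons_iff _).1 hν)
        refine ⟨W ⊔ W', sup_le_sup_left h1 W, hWi.sup h2, nd_sup hF hWn h3 (h1.trans hle), ?_⟩
        rw [finrank_sup_perp hWn (h1.trans hle), Multiset.sum_cons, h4]
      · obtain ⟨W', h1, h2, h3, h4⟩ := hr ν ((Multiset.le_cons_of_notMem hd).1 hν)
        exact ⟨W', h1.trans le_sup_right, h2, h3, h4⟩

/-- When all the blocks have the same dimension. -/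
theorem real_replicate (hF : Fintype.card F = q ^ 2) {T : Module.End F (Fin n → F)} (hT : Iso q T)
    {k : ℕ} (hk : 0 < k)
    (hA : ∀ S, IsInv T S → Nd q S → S ≠ ⊥ → ∃ W ≤ S, IsInv T W ∧ Nd q W ∧ W ≠ ⊥ ∧ finrank F W = k)
    {S : Submodule F (Fin n → F)} (hS : IsInv T S) (hSn : Nd q S) :
    k ∣ finrank F S ∧ ∀ m, k ∣ m → m ≤ finrank F S → ∃ W ≤ S, IsInv T W ∧ Nd q W ∧ finrank F W = m := by
  obtain ⟨μ, hμ, hs, hr⟩ := exists_real hF hT (fun a => a = k) hA S hS hSn
  have h1 : μ = Multiset.replicate (Multiset.card μ) k := Multiset.eq_replicate.2 ⟨rfl, hμ⟩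
  have h2 : finrank F S = Multiset.card μ * k := by
    rw [← hs]
    conv_lhs => rw [h1]
    simp
  refine ⟨⟨Multiset.card μ, by rw [h2, mul_comm]⟩, ?_⟩
  rintro m ⟨t, rfl⟩ hm
  have ht : t ≤ Multiset.card μ := by
    rw [h2, mul_comm] at hm
    exact Nat.le_of_mul_le_mul_right hm hk
  obtain ⟨W, h3, h4, h5, h6⟩ := hr (Multiset.replicate t k) (by
    conv_rhs => rw [h1]
    exact Multiset.replicate_le_replicate _ |>.2 ht)
  refine ⟨W, h3, h4, h5, ?_⟩
  rw [h6]
  simp [mul_comm]

end Cfsg.Agent.Lib.Classical.ElusiveU.Form
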