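import Mathlib
import Cfsg.Agent.Lib.Classical.ElusiveU.Form
import Cfsg.Agent.Lib.Classical.Herm.CycGU

/-!
# Nondegenerate invariant blocks
-/

set_option autoImplicit false
set_option linter.unusedSectionVars false
set_option linter.unusedSimpArgs false
set_option linter.unusedVariables false
set_option linter.style.haveILetI false

namespace Cfsg.Agent.Lib.Classical.ElusiveU.Atoms

open Module Polynomial
open Cfsg Cfsg.Agent.Lib.Classical.Herm.Basic Cfsg.Agent.Lib.Classical.Herm.Form
  Cfsg.Agent.Lib.Classical.Elusive.Inv Cfsg.Agent.Lib.Classical.Herm.Wall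
  Cfsg.Agent.Lib.Classical.ElusiveU.Form

section Cyc

variable {F V : Type*} [Field F] [AddCommGroup V] [Module F V] [FiniteDimensional F V]

/-- The cyclic subspace. -/
noncomputable def evalL (y : Module.End F V) (v : V) : F[X] →ₗ[F] V :=
  (LinearMap.applyₗ v).comp (Polynomial.aeval y).toLinearMap

theorem evalL_apply (y : Module.End F V) (v : V) (f : F[X]) : evalL y v f = Polynomial.aeval y f v := rfl

/-- The cyclic subspace generated by a vector. -/
noncomputable def cyc (y : Module.End F V) (v : V) : Submodule F V := LinearMap.range (evalL y v)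

theorem mem_cyc {y : Module.End F V} {v w : V} : w ∈ cyc y v ↔ ∃ f : F[X], Polynomial.aeval y f v = w :=
  Iff.rfl

theorem self_mem_cyc (y : Module.End F V) (v : V) : v ∈ cyc y v :=
  ⟨1, by simp [evalL_apply]⟩

theorem aeval_comm_apply (y : Module.End F V) (f g : F[X]) (v : V) :
    Polynomial.aeval y f (Polynomial.aeval y g v) = Polynomial.aeval y g (Polynomial.aeval y f v) := by
  rw [← Module.End.mul_apply, ← map_mul, mul_comm, map_mul, Module.End.mul_apply]

theorem aeval_mul_apply (y : Module.End F V) (f g : F[X]) (v : V) :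
    Polynomial.aeval y (f * g) v = Polynomial.aeval y f (Polynomial.aeval y g v) := by
  rw [map_mul, Module.End.mul_apply]

theorem isInv_cyc (y : Module.End F V) (v : V) : IsInv y (cyc y v) := by
  rintro _ ⟨f, rfl⟩
  refine ⟨X * f, ?_⟩
  rw [evalL_apply, evalL_apply, aeval_mul_apply, aeval_X]

theorem cyc_le {y : Module.End F V} {v : V} {U : Submodule F V} (hU : IsInv y U) (hv : v ∈ U) : cyc y v ≤ U := by
  rintro _ ⟨f, rfl⟩
  exact hU.aeval f hv

theorem cyc_eq_map {y : Module.End F V} {v : V} {g : F[X]} (hg : g.Monic)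
    (h : Polynomial.aeval y g v = 0) : cyc y v = (degreeLT F g.natDegree).map (evalL y v) := by
  apply le_antisymm
  · rintro _ ⟨f, rfl⟩
    refine ⟨f %ₘ g, ?_, ?_⟩
    · rw [SetLike.mem_coe, Polynomial.mem_degreeLT]
      by_cases hg1 : g = 1
      · subst hg1
        simp [modByMonic_one]
      have := degree_modByMonic_lt f hg
      rwa [degree_eq_natDegree hg.ne_zero] at this
    · have h1 := modByMonic_add_div f g
      conv_rhs => rw [← h1]
      rw [map_add, evalL_apply y v (g * _), mul_comm, aeval_mul_apply, h, map_zero, add_zero]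
  · rintro _ ⟨f, -, rfl⟩
    exact ⟨f, rfl⟩

theorem finrank_cyc_le {y : Module.End F V} {v : V} {g : F[X]} (hg : g.Monic)
    (h : Polynomial.aeval y g v = 0) : finrank F (cyc y v) ≤ g.natDegree := by
  rw [cyc_eq_map hg h]
  refine (Submodule.finrank_map_le _ _).trans ?_
  rw [(degreeLTEquiv F g.natDegree).finrank_eq, finrank_fin_fun]

theorem finrank_cyc_irr {y : Module.End F V} {v : V} {g : F[X]} (hg : g.Monic) (hi : Irreducible g)
    (h : Polynomial.aeval y g v = 0) (hv : v ≠ 0) : finrank F (cyc y v) = g.natDegree := by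
  apply le_antisymm (finrank_cyc_le hg h)
  rw [cyc_eq_map hg h]
  have hinj : Function.Injective ((evalL y v).domRestrict (degreeLT F g.natDegree)) := by
    rw [injective_iff_map_eq_zero]
    rintro ⟨f, hf⟩ h1
    have h2 : Polynomial.aeval y f v = 0 := h1
    apply Subtype.ext
    by_contra hf0
    have hf0' : f ≠ 0 := hf0
    have hlt : f.degree < g.degree := by
      rw [Polynomial.mem_degreeLT] at hf
      rwa [degree_eq_natDegree hg.ne_zero]
    have hco : IsCoprime g f := (hi.coprime_iff_not_dvd).2 (fun hdvd => by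
      have := Polynomial.degree_le_of_dvd hdvd hf0'
      exact absurd hlt (not_lt.2 this))
    obtain ⟨a, b, hab⟩ := hco
    apply hv
    have h3 := congrArg (fun p => Polynomial.aeval y p v) hab
    simp only [map_add, map_mul, LinearMap.add_apply, Module.End.mul_apply, map_one, Module.End.one_apply, h, h2,
      map_zero, add_zero] at h3
    exact h3.symm
  have h1 : (degreeLT F g.natDegree).map (evalL y v) = ((evalL y v).domRestrict (degreeLT F g.natDegree)).range :=
    (LinearMap.range_domRestrict _ _).symm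
  rw [h1, LinearMap.finrank_range_of_inj hinj, (degreeLTEquiv F g.natDegree).finrank_eq, finrank_fin_fun]

/-- Every nonzero vector of a cyclic subspace with irreducible annihilator generates it. -/
theorem simple_cyc {y : Module.End F V} {v w : V} {g : F[X]} (hi : Irreducible g)
    (h : Polynomial.aeval y g v = 0) (hw : w ∈ cyc y v) (hw0 : w ≠ 0) : ∃ a : F[X], Polynomial.aeval y a w = v := by
  obtain ⟨f, rfl⟩ := hw
  rw [evalL_apply] at hw0 ⊢
  have hco : IsCoprime g f := (hi.coprime_iff_not_dvd).2 (fun ⟨e, he⟩ => by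
    apply hw0
    rw [he, aeval_mul_apply, aeval_comm_apply, h, map_zero])
  obtain ⟨a, b, hab⟩ := hco
  refine ⟨b, ?_⟩
  have h3 := congrArg (fun p => Polynomial.aeval y p v) hab
  simp only [map_add, map_mul, LinearMap.add_apply, Module.End.mul_apply, map_one, Module.End.one_apply, h,
    map_zero, zero_add] at h3
  exact h3

/-- A polynomial vanishing on a vector of a cyclic subspace. -/
theorem aeval_of_mem_cyc {y : Module.End F V} {v w : V} {g : F[X]} (h : Polynomial.aeval y g v = 0)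
    (hw : w ∈ cyc y v) : Polynomial.aeval y g w = 0 := by
  obtain ⟨f, rfl⟩ := hw
  rw [evalL_apply, aeval_comm_apply, h, map_zero]

/-- A vector killed by coprime polynomials vanishes. -/
theorem eq_zero_of_coprime {y : Module.End F V} {w : V} {g g' : F[X]} (hco : IsCoprime g g')
    (h : Polynomial.aeval y g w = 0) (h' : Polynomial.aeval y g' w = 0) : w = 0 := by
  obtain ⟨a, b, hab⟩ := hco
  have h3 := congrArg (fun p => Polynomial.aeval y p w) hab
  simp only [map_add, map_mul, LinearMap.add_apply, Module.End.mul_apply, map_one, Module.End.one_apply, h, h',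
    map_zero, zero_add, add_zero] at h3
  exact h3.symm

/-- Some irreducible factor has a kernel on a nonzero invariant subspace. -/
theorem exists_factor_ker {y : Module.End F V} {S : Submodule F V} (hS : IsInv y S) {s : V} (hs : s ∈ S)
    (hs0 : s ≠ 0) (d : ℕ) : ∀ G : F[X], G.natDegree ≤ d → G ≠ 0 → Polynomial.aeval y G s = 0 →
    ∃ g : F[X], g.Monic ∧ Irreducible g ∧ g ∣ G ∧ ∃ u ∈ S, u ≠ 0 ∧ Polynomial.aeval y g u = 0 := by
  induction d with
  | zero =>
    intro G hd hG0 h
    exfalso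
    have h1 : G = C (G.coeff 0) := eq_C_of_natDegree_le_zero hd
    rw [h1, aeval_C] at h
    have h2 : G.coeff 0 ≠ 0 := by
      intro h3
      apply hG0
      rw [h1, h3, C_0]
    rw [Module.algebraMap_end_apply] at h
    exact hs0 ((smul_eq_zero.1 h).resolve_left h2)
  | succ d ih =>
    intro G hd hG0 h
    have hnu : ¬ IsUnit G := by
      intro hu
      obtain ⟨c, hc0, rfl⟩ := Polynomial.isUnit_iff.1 hu
      rw [aeval_C, Module.algebraMap_end_apply] at h
      exact hs0 ((smul_eq_zero.1 h).resolve_left hc0.ne_zero)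
    obtain ⟨g, hgm, hgi, e, he⟩ := exists_monic_irreducible_factor G hnu
    have he0 : e ≠ 0 := by
      rintro rfl
      rw [mul_zero] at he
      exact hG0 he
    by_cases he1 : Polynomial.aeval y e s = 0
    · have hdeg : e.natDegree ≤ d := by
        have h1 : G.natDegree = g.natDegree + e.natDegree := by
          rw [he, natDegree_mul hgm.ne_zero he0]
        have h2 := hgi.natDegree_pos
        omega
      obtain ⟨g', h1, h2, h3, h4⟩ := ih e hdeg he0 he1
      exact ⟨g', h1, h2, h3.trans ⟨g, by rw [he, mul_comm]⟩, h4⟩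
    · refine ⟨g, hgm, hgi, ⟨e, he⟩, Polynomial.aeval y e s, hS.aeval e hs, he1, ?_⟩
      rw [← aeval_mul_apply, ← he, h]

end Cyc

section Herm

variable {F : Type*} [Field F] [Fintype F] {q n : ℕ}

/-- The adjoint of a polynomial in an isometry. -/
theorem herm_aeval (hF : Fintype.card F = q ^ 2) {y : Module.End F (Fin n → F)} (hy : Iso q y) {g : F[X]}
    (h0 : g.coeff 0 ≠ 0) (u x : Fin n → F) :
    hermForm n F q ((y ^ g.natDegree) u) (Polynomial.aeval y g x) =
      g.coeff 0 ^ q * hermForm n F q (Polynomial.aeval y (dualP hF g) u) x := by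
  classical
  set d := g.natDegree with hd
  have hgd : (g.map (sigma hF)).natDegree = d := natDegree_map _
  have hc : (g.map (sigma hF)).coeff 0 = g.coeff 0 ^ q := coeff_map_zero hF g
  have hc0 : g.coeff 0 ^ q ≠ 0 := pow_ne_zero _ h0
  have h1 : Polynomial.aeval y (dualP hF g) u = (g.coeff 0 ^ q)⁻¹ • Polynomial.aeval y (g.map (sigma hF)).reverse u := by
    rw [dualP, map_mul, aeval_C, hc, Module.End.mul_apply, Module.algebraMap_end_apply]
  rw [h1, hermForm_smul_left, ← mul_assoc, mul_inv_cancel₀ hc0, one_mul]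
  have hL : Polynomial.aeval y g x = ∑ j ∈ Finset.range (d + 1), g.coeff j • (y ^ j) x := by
    rw [Polynomial.aeval_eq_sum_range, LinearMap.sum_apply]
    rfl
  have hR : Polynomial.aeval y (g.map (sigma hF)).reverse u =
      ∑ k ∈ Finset.range (d + 1), (g.coeff (d - k)) ^ q • (y ^ k) u := by
    have hlt : (g.map (sigma hF)).reverse.natDegree < d + 1 := by
      have := reverse_natDegree_le (g.map (sigma hF))
      omega
    rw [Polynomial.aeval_eq_sum_range' hlt, LinearMap.sum_apply]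
    refine Finset.sum_congr rfl fun k hk => ?_
    have hk' : k ≤ d := by
      have := Finset.mem_range.1 hk
      omega
    rw [coeff_reverse, hgd, revAt_le hk', coeff_map, sigma_apply]
    rfl
  rw [hL, hR, hermForm_sum_right hF, hermForm_sum_left]
  rw [← Finset.sum_range_reflect]
  refine Finset.sum_congr rfl fun j hj => ?_
  have hj' : j ≤ d := by
    have := Finset.mem_range.1 hj
    omega
  have h2 : d + 1 - 1 - j = d - j := by omega
  rw [h2]
  congr 1
  have h3 : (y ^ d) u = (y ^ (d - j)) ((y ^ j) u) := by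
    rw [← Module.End.mul_apply, ← pow_add, Nat.sub_add_cancel hj']
  rw [h3, hy.pow (d - j)]

/-- If the dual polynomial kills `u`, then `u` is orthogonal to the image of the polynomial. -/
theorem perp_of_dual (hF : Fintype.card F = q ^ 2) {y : Module.End F (Fin n → F)} (hy : Iso q y) {g : F[X]}
    (h0 : g.coeff 0 ≠ 0) {u' : Fin n → F} (hu' : Polynomial.aeval y (dualP hF g) u' = 0) (x : Fin n → F) :
    hermForm n F q u' (Polynomial.aeval y g x) = 0 := by
  obtain ⟨u, rfl⟩ := (hy.pow g.natDegree).surjective hF u'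
  rw [herm_aeval hF hy h0]
  have h1 : Polynomial.aeval y (dualP hF g) u = 0 := by
    apply (hy.pow g.natDegree).injective hF
    rw [map_zero, ← hu']
    have h2 : y ^ g.natDegree = Polynomial.aeval y (X ^ g.natDegree : F[X]) := by
      rw [map_pow, aeval_X]
    rw [h2, aeval_comm_apply]
  rw [h1, hermForm_zero_left, mul_zero]

theorem perp_of_self (hF : Fintype.card F = q ^ 2) {y : Module.End F (Fin n → F)} (hy : Iso q y) {g : F[X]}
    (hm : g.Monic) (h0 : g.coeff 0 ≠ 0) {u : Fin n → F} (hu : Polynomial.aeval y g u = 0) (x : Fin n → F) :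
    hermForm n F q u (Polynomial.aeval y (dualP hF g) x) = 0 := by
  apply perp_of_dual hF hy (coeff_zero_dualP hF hm h0)
  rw [dualP_dualP hF hm h0]
  exact hu

/-- A partner in the dual primary component. -/
theorem exists_partner (hF : Fintype.card F = q ^ 2) {y : Module.End F (Fin n → F)} (hy : Iso q y)
    {g G g₂ : F[X]} (hm : g.Monic) (h0 : g.coeff 0 ≠ 0) (hG : Polynomial.aeval y G = 0)
    (hfac : G = dualP hF g * g₂) (hco : IsCoprime (dualP hF g) g₂)
    {S : Submodule F (Fin n → F)} (hS : IsInv y S) (hSn : Nd q S) {u : Fin n → F} (hu : u ∈ S) (hu0 : u ≠ 0)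
    (hgu : Polynomial.aeval y g u = 0) :
    ∃ v ∈ S, Polynomial.aeval y (dualP hF g) v = 0 ∧ hermForm n F q u v ≠ 0 := by
  obtain ⟨s, hs, hus⟩ := hSn u hu hu0
  obtain ⟨a, b, hab⟩ := hco
  refine ⟨Polynomial.aeval y (b * g₂) s, hS.aeval _ hs, ?_, ?_⟩
  · rw [← aeval_mul_apply, show dualP hF g * (b * g₂) = b * (dualP hF g * g₂) by ring, ← hfac, aeval_mul_apply, hG]
    simp
  · have h1 : s = Polynomial.aeval y (dualP hF g) (Polynomial.aeval y a s) + Polynomial.aeval y (b * g₂) s := by
      have h3 := congrArg (fun p => Polynomial.aeval y p s) hab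
      simp only [map_add, map_mul, LinearMap.add_apply, Module.End.mul_apply, map_one, Module.End.one_apply] at h3
      rw [aeval_mul_apply, aeval_comm_apply y (dualP hF g) a]
      exact h3.symm
    intro h2
    apply hus
    rw [h1, hermForm_add_right hF, perp_of_self hF hy hm h0 hgu, h2, add_zero]

/-- The radical of an invariant subspace is invariant. -/
theorem isInv_rad (hF : Fintype.card F = q ^ 2) {y : Module.End F (Fin n → F)} (hy : Iso q y)
    {W : Submodule F (Fin n → F)} (hW : IsInv y W) : IsInv y (W ⊓ perp q W) :=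
  hW.inf (inv_perp hF hy hW)

/-- The self-dual block. -/
theorem atom_sd (hF : Fintype.card F = q ^ 2) {y : Module.End F (Fin n → F)} (hy : Iso q y)
    {g G g₂ : F[X]} (hm : g.Monic) (hi : Irreducible g) (h0 : g.coeff 0 ≠ 0) (hd : dualP hF g = g)
    (hG : Polynomial.aeval y G = 0) (hfac : G = g * g₂) (hco : IsCoprime g g₂)
    {S : Submodule F (Fin n → F)} (hS : IsInv y S) (hSn : Nd q S) {u : Fin n → F} (hu : u ∈ S) (hu0 : u ≠ 0)
    (hgu : Polynomial.aeval y g u = 0) :
    ∃ W ≤ S, IsInv y W ∧ Nd q W ∧ W ≠ ⊥ ∧ finrank F W = g.natDegree ∧ ∀ w ∈ W, Polynomial.aeval y g w = 0 := by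
  set E : Submodule F (Fin n → F) := S ⊓ LinearMap.ker (Polynomial.aeval y g) with hE
  have hEi : IsInv y E := hS.inf (isInv_ker_aeval y g)
  have hEn : Nd q E := by
    rintro u' ⟨h1, h2⟩ h3
    obtain ⟨v, hv, hv', hne⟩ := exists_partner hF hy hm h0 hG (by rw [hd]; exact hfac) (by rw [hd]; exact hco)
      hS hSn h1 h3 h2
    rw [hd] at hv'
    exact ⟨v, ⟨hv, hv'⟩, hne⟩
  have hE0 : E ≠ ⊥ := by
    intro h
    have h1 : u ∈ E := ⟨hu, hgu⟩
    rw [h] at h1
    exact hu0 ((Submodule.mem_bot F).1 h1)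
  obtain ⟨u₁, hu₁, hu₁a⟩ := exists_aniso hF hEn hE0
  have hu₁0 : u₁ ≠ 0 := by
    rintro rfl
    exact hu₁a (hermForm_zero_left n _)
  have hgu₁ : Polynomial.aeval y g u₁ = 0 := hu₁.2
  have hle : cyc y u₁ ≤ E := cyc_le hEi hu₁
  refine ⟨cyc y u₁, hle.trans inf_le_left, isInv_cyc y u₁, ?_, ?_, finrank_cyc_irr hm hi hgu₁ hu₁0,
    fun w hw => (hle hw).2⟩
  · intro w hw hw0
    by_contra hcon
    push Not at hcon
    obtain ⟨a, ha⟩ := simple_cyc hi hgu₁ hw hw0
    have hR : w ∈ cyc y u₁ ⊓ perp q (cyc y u₁) := ⟨hw, hcon⟩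
    have h1 := (isInv_rad hF hy (isInv_cyc y u₁)).aeval a hR
    rw [ha] at h1
    exact hu₁a (h1.2 u₁ (self_mem_cyc y u₁))
  · intro h
    have h1 := self_mem_cyc y u₁
    rw [h] at h1
    exact hu₁0 ((Submodule.mem_bot F).1 h1)

/-- The block of a non-self-dual factor. -/
theorem atom_nsd (hF : Fintype.card F = q ^ 2) {y : Module.End F (Fin n → F)} (hy : Iso q y)
    {g G g₂ : F[X]} (hm : g.Monic) (hi : Irreducible g) (h0 : g.coeff 0 ≠ 0) (hd : dualP hF g ≠ g)
    (hG : Polynomial.aeval y G = 0) (hfac : G = dualP hF g * g₂) (hco : IsCoprime (dualP hF g) g₂)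
    {S : Submodule F (Fin n → F)} (hS : IsInv y S) (hSn : Nd q S) {u : Fin n → F} (hu : u ∈ S) (hu0 : u ≠ 0)
    (hgu : Polynomial.aeval y g u = 0) :
    ∃ W ≤ S, IsInv y W ∧ Nd q W ∧ W ≠ ⊥ ∧ finrank F W = 2 * g.natDegree := by
  obtain ⟨v, hv, hv', hne⟩ := exists_partner hF hy hm h0 hG hfac hco hS hSn hu hu0 hgu
  have hv0 : v ≠ 0 := by
    rintro rfl
    apply hne
    exact hermForm_zero_right hF n u
  have hm' := dualP_monic hF hm h0
  have hi' := irreducible_dualP hF hm h0 hi
  have hdeg' := natDegree_dualP hF h0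
  have hcop : IsCoprime g (dualP hF g) := by
    apply (hi.coprime_iff_not_dvd).2
    intro hdvd
    apply hd
    exact eq_of_monic_of_dvd_of_natDegree_le hm hm' hdvd (by omega)
  have hcv := self_mem_cyc y v
  have hcu := self_mem_cyc y u
  have hinf : cyc y u ⊓ cyc y v = ⊥ := by
    rw [eq_bot_iff]
    rintro x ⟨h1, h2⟩
    exact (Submodule.mem_bot F).2 (eq_zero_of_coprime hcop (aeval_of_mem_cyc hgu h1) (aeval_of_mem_cyc hv' h2))
  have hWi : IsInv y (cyc y u ⊔ cyc y v) := (isInv_cyc y u).sup (isInv_cyc y v)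
  refine ⟨cyc y u ⊔ cyc y v, sup_le (cyc_le hS hu) (cyc_le hS hv), hWi, ?_, ?_, ?_⟩
  · intro w hw hw0
    by_contra hcon
    push Not at hcon
    have hR : w ∈ (cyc y u ⊔ cyc y v) ⊓ perp q (cyc y u ⊔ cyc y v) := ⟨hw, hcon⟩
    have hRi := isInv_rad hF hy hWi
    obtain ⟨w₁, hw₁, w₂, hw₂, rfl⟩ := Submodule.mem_sup.1 hw
    by_cases hw₁0 : w₁ = 0
    · subst hw₁0
      rw [zero_add] at hw0 hR
      obtain ⟨a, ha⟩ := simple_cyc hi' hv' hw₂ hw0
      have h1 := hRi.aeval a hR
      rw [ha] at h1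
      apply hne
      apply herm_eq_zero_symm hF
      exact h1.2 u (Submodule.mem_sup_left hcu)
    · have h1 := hRi.aeval (dualP hF g) hR
      rw [map_add, aeval_of_mem_cyc hv' hw₂, add_zero] at h1
      have h2 : Polynomial.aeval y (dualP hF g) w₁ ≠ 0 := by
        intro h3
        exact hw₁0 (eq_zero_of_coprime hcop (aeval_of_mem_cyc hgu hw₁) h3)
      have h3 : Polynomial.aeval y (dualP hF g) w₁ ∈ cyc y u := (isInv_cyc y u).aeval _ hw₁
      obtain ⟨a, ha⟩ := simple_cyc hi hgu h3 h2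
      have h4 := hRi.aeval a h1
      rw [ha] at h4
      exact hne (h4.2 v (Submodule.mem_sup_right hcv))
  · intro h
    have h1 : u ∈ cyc y u ⊔ cyc y v := Submodule.mem_sup_left hcu
    rw [h] at h1
    exact hu0 ((Submodule.mem_bot F).1 h1)
  · have h1 := Submodule.finrank_sup_add_finrank_inf_eq (cyc y u) (cyc y v)
    rw [hinf, finrank_bot, add_zero, finrank_cyc_irr hm hi hgu hu0, finrank_cyc_irr hm' hi' hv' hv0] at h1
    omega

/-- The blocks of a semisimple isometry. -/
theorem exists_atom (hF : Fintype.card F = q ^ 2) {y : Module.End F (Fin n → F)} (hy : Iso q y)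
    {G : F[X]} (hG : Polynomial.aeval y G = 0) (hsep : G.Separable) (hd : dualP hF G = G)
    (hG0 : G.coeff 0 ≠ 0) {S : Submodule F (Fin n → F)} (hS : IsInv y S) (hSn : Nd q S) (hS0 : S ≠ ⊥) :
    ∃ g : F[X], g.Monic ∧ Irreducible g ∧ g ∣ G ∧ ∃ W ≤ S, IsInv y W ∧ Nd q W ∧ W ≠ ⊥ ∧
      ((dualP hF g = g ∧ finrank F W = g.natDegree ∧ ∀ w ∈ W, Polynomial.aeval y g w = 0) ∨
        (dualP hF g ≠ g ∧ finrank F W = 2 * g.natDegree)) := by
  obtain ⟨s, hs, hs0⟩ := (Submodule.ne_bot_iff S).1 hS0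
  have hGne : G ≠ 0 := hsep.ne_zero
  obtain ⟨g, hm, hi, ⟨e, he⟩, u, hu, hu0, hgu⟩ := exists_factor_ker hS hs hs0 G.natDegree G le_rfl hGne (by rw [hG]; rfl)
  have h0 : g.coeff 0 ≠ 0 := by
    intro h
    apply hG0
    rw [he, mul_coeff_zero, h, zero_mul]
  refine ⟨g, hm, hi, ⟨e, he⟩, ?_⟩
  have hfac' : G = dualP hF g * dualP hF e := by
    rw [← dualP_mul, ← he, hd]
  have hcop' : IsCoprime (dualP hF g) (dualP hF e) := by
    apply Separable.isCoprime
    rw [← hfac']
    exact hsep
  by_cases hdg : dualP hF g = g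
  · rw [hdg] at hfac' hcop'
    obtain ⟨W, h1, h2, h3, h4, h5, h6⟩ := atom_sd hF hy hm hi h0 hdg hG hfac' hcop' hS hSn hu hu0 hgu
    exact ⟨W, h1, h2, h3, h4, Or.inl ⟨hdg, h5, h6⟩⟩
  · obtain ⟨W, h1, h2, h3, h4, h5⟩ := atom_nsd hF hy hm hi h0 hdg hG hfac' hcop' hS hSn hu hu0 hgu
    exact ⟨W, h1, h2, h3, h4, Or.inr ⟨hdg, h5⟩⟩

/-- The blocks of a unipotent isometry. -/
theorem atom_unip (hF : Fintype.card F = q ^ 2) {y : Module.End F (Fin n → F)} (hy : Iso q y) {p : ℕ}
    (hN : (y - 1) ^ p = 0) {S : Submodule F (Fin n → F)} (hS : IsInv y S) (hSn : Nd q S) (hS0 : S ≠ ⊥) :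
    ∃ W ≤ S, IsInv y W ∧ Nd q W ∧ W ≠ ⊥ ∧ finrank F W ≤ p := by
  classical
  set N : Module.End F (Fin n → F) := y - 1 with hNdef
  have hinvN : ∀ {U : Submodule F (Fin n → F)}, IsInv y U → IsInv N U := by
    intro U hU x hx
    show y x - x ∈ U
    exact U.sub_mem (hU x hx) hx
  have hinvY : ∀ {U : Submodule F (Fin n → F)}, IsInv N U → IsInv y U := by
    intro U hU x hx
    have h1 : y x = N x + x := by
      show y x = y x - x + x
      abel
    rw [h1]
    exact U.add_mem (hU x hx) hx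
  have hex : ∃ e, ∀ s ∈ S, (N ^ e) s = 0 := ⟨p, fun s _ => by rw [hN]; rfl⟩
  set e := Nat.find hex with he
  have hespec := Nat.find_spec hex
  have hep : e ≤ p := Nat.find_min' hex (fun s _ => by rw [hN]; rfl)
  have he0 : e ≠ 0 := by
    intro h0
    obtain ⟨s, hs, hs0⟩ := (Submodule.ne_bot_iff S).1 hS0
    have := hespec s hs
    rw [← he, h0, pow_zero] at this
    exact hs0 this
  obtain ⟨e', he'⟩ : ∃ e', e = e' + 1 := ⟨e - 1, by omega⟩
  have hmin : ¬ ∀ s ∈ S, (N ^ e') s = 0 := Nat.find_min hex (by omega)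
  push Not at hmin
  obtain ⟨s₀, hs₀, hs₀0⟩ := hmin
  have hSN := hinvN hS
  obtain ⟨s₁, hs₁, hs₁0⟩ := hSn _ (hSN.pow e' hs₀) hs₀0
  obtain ⟨ξ, hξ⟩ : ∃ ξ : F, ξ ^ q ≠ ξ := by
    by_contra hc
    push Not at hc
    apply sigma_ne_id hF
    ext x
    exact hc x
  obtain ⟨v, hv, hvv⟩ : ∃ v ∈ S, hermForm n F q ((N ^ e') v) v ≠ 0 := by
    by_contra hcon
    push Not at hcon
    have hkey : ∀ c : F, c ^ q * hermForm n F q ((N ^ e') s₀) s₁ + c * hermForm n F q ((N ^ e') s₁) s₀ = 0 := by
      intro c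
      have h1 := hcon (s₀ + c • s₁) (S.add_mem hs₀ (S.smul_mem c hs₁))
      rw [map_add, map_smul, hermForm_add_left, hermForm_add_right hF, hermForm_add_right hF, hermForm_smul_left,
        hermForm_smul_right, hermForm_smul_right, hermForm_smul_left, hcon s₀ hs₀, hcon s₁ hs₁] at h1
      linear_combination h1
    have h1 := hkey 1
    have h2 := hkey ξ
    rw [one_pow, one_mul, one_mul] at h1
    apply hs₁0
    have h3 : (ξ ^ q - ξ) * hermForm n F q ((N ^ e') s₀) s₁ = 0 := by
      linear_combination h2 - ξ * h1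
    exact (mul_eq_zero.1 h3).resolve_left (sub_ne_zero.2 hξ)
  have hv0 : v ≠ 0 := by
    rintro rfl
    rw [map_zero] at hvv
    exact hvv (hermForm_zero_left n _)
  have hNv : (N ^ (e' + 1)) v = 0 := by
    have := hespec v hv
    rwa [← he, he'] at this
  have hWi : IsInv y (cyc N v) := hinvY (isInv_cyc N v)
  have hcv := self_mem_cyc N v
  refine ⟨cyc N v, cyc_le hSN hv, hWi, ?_, ?_, ?_⟩
  · intro w hw hw0
    by_contra hcon
    push Not at hcon
    have hR : w ∈ cyc N v ⊓ perp q (cyc N v) := ⟨hw, hcon⟩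
    have hRi : IsInv N (cyc N v ⊓ perp q (cyc N v)) := hinvN (isInv_rad hF hy hWi)
    obtain ⟨f, rfl⟩ := hw
    rw [evalL_apply] at hw0 hR
    have hf0 : f ≠ 0 := by
      rintro rfl
      apply hw0
      simp
    obtain ⟨f₁, hf₁, hf₁0⟩ := exists_eq_pow_rootMultiplicity_mul_and_not_dvd f hf0 (0 : F)
    rw [C_0, sub_zero] at hf₁ hf₁0
    set j := f.rootMultiplicity 0 with hj
    have hf₁c : f₁.coeff 0 ≠ 0 := by
      intro h
      exact hf₁0 (X_dvd_iff.2 h)
    have hjle : j ≤ e' := by
      by_contra hlt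
      apply hw0
      rw [hf₁, aeval_mul_apply, aeval_comm_apply, map_pow, aeval_X]
      have h1 : N ^ j = N ^ (j - (e' + 1)) * N ^ (e' + 1) := by
        rw [← pow_add]
        congr 1
        omega
      rw [h1, Module.End.mul_apply, hNv]
      simp
    have h2 := hRi.pow (e' - j) hR
    have h3 : (N ^ (e' - j)) (Polynomial.aeval N f v) = f₁.coeff 0 • (N ^ e') v := by
      have h4 : f₁ = f₁.divX * X + C (f₁.coeff 0) := (divX_mul_X_add f₁).symm
      have h5 : (X ^ (e' - j) * f : F[X]) = f₁.divX * X ^ (e' + 1) + C (f₁.coeff 0) * X ^ e' := by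
        rw [hf₁]
        conv_lhs => rw [h4]
        have h6 : e' = (e' - j) + j := by omega
        conv_rhs => rw [pow_succ, h6]
        ring
      have h7 : (N ^ (e' - j)) (Polynomial.aeval N f v) = Polynomial.aeval N (X ^ (e' - j) * f : F[X]) v := by
        rw [aeval_mul_apply, map_pow, aeval_X]
      rw [h7, h5, map_add, LinearMap.add_apply, aeval_mul_apply, map_pow, aeval_X, hNv, map_zero, zero_add,
        aeval_mul_apply, map_pow, aeval_X, aeval_C, Module.algebraMap_end_apply]
    rw [h3] at h2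
    have h4 : (N ^ e') v ∈ perp q (cyc N v) := by
      have h5 := (perp q (cyc N v)).smul_mem (f₁.coeff 0)⁻¹ h2.2
      rwa [smul_smul, inv_mul_cancel₀ hf₁c, one_smul] at h5
    exact hvv (h4 v hcv)
  · intro h
    rw [h] at hcv
    exact hv0 ((Submodule.mem_bot F).1 hcv)
  · have h1 := finrank_cyc_le (y := N) (v := v) (g := (X ^ (e' + 1) : F[X])) (monic_X_pow _) (by
      rw [map_pow, aeval_X]
      exact hNv)
    rw [natDegree_X_pow] at h1
    omega

end Herm

end Cfsg.Agent.Lib.Classical.ElusiveU.Atoms
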