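import Mathlib
import Cfsg.Agent.Lib.Classical.ElusiveU.Form

/-!
# The number of nondegenerate subspaces
-/

set_option autoImplicit false
set_option linter.unusedSectionVars false
set_option linter.unusedSimpArgs false
set_option linter.unusedVariables false
set_option linter.style.haveILetI false

namespace Cfsg.Agent.Lib.Classical.ElusiveU.Count

open Module Polynomial
open Cfsg Cfsg.Agent.Lib.Classical.Herm.Basic Cfsg.Agent.Lib.Classical.Herm.Form
  Cfsg.Agent.Lib.Classical.Herm.Block Cfsg.Agent.Lib.Classical.ElusiveU.Form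

section Order

/-- The order of `-q`. -/
theorem orderOf_neg {r : ℕ} [Fact r.Prime] (hr2 : r ≠ 2) {x : ZMod r} (hx : x ≠ 0) :
    orderOf (-x) = (if orderOf x % 4 = 0 then orderOf x else if orderOf x % 4 = 2 then orderOf x / 2 else 2 * orderOf x) := by
  have hr : r.Prime := Fact.out
  have hneg : (-1 : ZMod r) ≠ 1 := by
    haveI : NeZero r := ⟨hr.ne_zero⟩
    intro h
    have h1 : (2 : ZMod r) = 0 := by linear_combination -h
    have h2 : ((2 : ℕ) : ZMod r) = 0 := by exact_mod_cast h1
    rw [ZMod.natCast_eq_zero_iff] at h2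
    exact hr2 ((Nat.prime_dvd_prime_iff_eq hr Nat.prime_two).1 h2)
  have hi : 0 < orderOf x := by
    have : IsOfFinOrder x := by
      rw [isOfFinOrder_iff_pow_eq_one]
      refine ⟨r - 1, by have := hr.two_le; omega, ZMod.pow_card_sub_one_eq_one hx⟩
    exact this.orderOf_pos
  set i := orderOf x with hidef
  have hpow : ∀ j, x ^ j = 1 ↔ i ∣ j := fun j => orderOf_dvd_iff_pow_eq_one.symm
  have hnegpow : ∀ j, (-x) ^ j = 1 ↔ (Even j ∧ x ^ j = 1) ∨ (Odd j ∧ x ^ j = -1) := by
    intro j
    rw [neg_pow]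
    rcases Nat.even_or_odd j with h | h
    · rw [h.neg_one_pow, one_mul]
      constructor
      · intro h1
        exact Or.inl ⟨h, h1⟩
      · rintro (⟨-, h1⟩ | ⟨h2, -⟩)
        · exact h1
        · exact absurd h (Nat.not_even_iff_odd.2 h2)
    · rw [h.neg_one_pow]
      constructor
      · intro h1
        exact Or.inr ⟨h, by linear_combination -h1⟩
      · rintro (⟨h2, -⟩ | ⟨-, h1⟩)
        · exact absurd h2 (Nat.not_even_iff_odd.2 h)
        · rw [h1]
          ring
  have hminus : ∀ j, x ^ j = -1 → i ∣ 2 * j := by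
    intro j h
    rw [← hpow, mul_comm, pow_mul, h]
    ring
  have key : ∀ c : ℕ, (∀ j, (-x) ^ j = 1 ↔ c ∣ j) → orderOf (-x) = c := by
    intro c h
    apply Nat.dvd_antisymm
    · rw [orderOf_dvd_iff_pow_eq_one, h]
    · rw [← h, pow_orderOf_eq_one]
  have hhalf : Even i → x ^ (i / 2) = -1 := by
    rintro ⟨b, hb⟩
    have hb' : i / 2 = b := by omega
    have h1 : (x ^ b) ^ 2 = 1 := by
      rw [← pow_mul, show b * 2 = i by omega, pow_orderOf_eq_one]
    have h2 : x ^ b ≠ 1 := by
      rw [Ne, hpow]
      intro h3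
      have := Nat.le_of_dvd (by omega) h3
      omega
    rw [hb']
    have h3 : (x ^ b - 1) * (x ^ b + 1) = 0 := by linear_combination h1
    rcases mul_eq_zero.1 h3 with h4 | h4
    · exact absurd (sub_eq_zero.1 h4) h2
    · linear_combination h4
  apply key
  intro j
  rw [hnegpow]
  split_ifs with h4 h2
  · -- `i ≡ 0 mod 4`
    constructor
    · rintro (⟨-, h⟩ | ⟨hj, h⟩)
      · exact (hpow j).1 h
      · exfalso
        have h5 := hminus j h
        have h6 : 4 ∣ 2 * j := (Nat.dvd_of_mod_eq_zero h4).trans h5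
        obtain ⟨s, hs⟩ := hj
        omega
    · intro h
      refine Or.inl ⟨?_, (hpow j).2 h⟩
      have h5 : 2 ∣ i := by omega
      exact (even_iff_two_dvd.2 (h5.trans h))
  · -- `i ≡ 2 mod 4`
    have hev : Even i := by
      rw [even_iff_two_dvd]
      omega
    have hb := hhalf hev
    obtain ⟨b, hb'⟩ : ∃ b, i = 2 * b := by
      obtain ⟨b, hb'⟩ := hev
      exact ⟨b, by omega⟩
    have hbi : i / 2 = b := by omega
    rw [hbi] at hb ⊢
    constructor
    · rintro (⟨-, h⟩ | ⟨-, h⟩)
      · have h5 := (hpow j).1 h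
        rw [hb'] at h5
        exact (Dvd.intro_left 2 rfl).trans h5
      · have h5 := hminus j h
        rw [hb'] at h5
        exact Nat.dvd_of_mul_dvd_mul_left (by omega) h5
    · rintro ⟨t, rfl⟩
      have hbodd : Odd b := by
        rw [← Nat.not_even_iff_odd]
        rintro ⟨s, hs⟩
        omega
      rcases Nat.even_or_odd t with ht | ht
      · left
        refine ⟨ht.mul_left b, ?_⟩
        rw [hpow, hb']
        obtain ⟨s, rfl⟩ := ht
        exact ⟨s, by ring⟩
      · right
        refine ⟨hbodd.mul ht, ?_⟩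
        rw [pow_mul, hb, ht.neg_one_pow]
  · -- `i` odd
    have hodd : Odd i := by
      rw [← Nat.not_even_iff_odd]
      rintro ⟨s, hs⟩
      omega
    constructor
    · rintro (⟨hj, h⟩ | ⟨-, h⟩)
      · exact (Nat.Coprime.mul_dvd_of_dvd_of_dvd (Nat.coprime_two_left.2 hodd) (even_iff_two_dvd.1 hj) ((hpow j).1 h))
      · exfalso
        have h5 := hminus j h
        have h6 : i ∣ j := (Nat.coprime_two_right.2 hodd).dvd_of_dvd_mul_left h5
        rw [(hpow j).2 h6] at h
        exact hneg h.symm
    · intro h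
      left
      exact ⟨even_iff_two_dvd.2 ((Dvd.intro _ rfl).trans h), (hpow j).2 ((Dvd.intro_left _ rfl).trans h)⟩

end Order

variable {F : Type*} [Field F] [Fintype F] {q n : ℕ}

/-- The space spanned by a frame. -/
theorem linInd_frame {k : ℕ} {f : Fin k → Fin n → F} (hf : IsFrame q f) : LinearIndependent F f := by
  classical
  rw [Fintype.linearIndependent_iff]
  intro g hg j
  have h1 := congrArg (fun u => hermForm n F q u (f j)) hg
  simp only [hermForm_sum_left, hermForm_zero_left] at h1
  rw [Finset.sum_eq_single j] at h1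
  · rw [hf j j] at h1
    simpa using h1
  · intro i _ hij
    rw [hf i j, if_neg hij, mul_zero]
  · intro h
    exact absurd (Finset.mem_univ j) h

theorem finrank_span_frame {k : ℕ} {f : Fin k → Fin n → F} (hf : IsFrame q f) :
    finrank F (Submodule.span F (Set.range f)) = k := by
  rw [finrank_span_eq_card (linInd_frame hf), Fintype.card_fin]

theorem nd_span_frame {k : ℕ} {f : Fin k → Fin n → F} (hf : IsFrame q f) :
    Nd q (Submodule.span F (Set.range f)) := by
  classical
  intro u hu hu0
  obtain ⟨c, rfl⟩ := (Submodule.mem_span_range_iff_exists_fun F).1 hu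
  obtain ⟨i, hi⟩ : ∃ i, c i ≠ 0 := by
    by_contra hcon
    push Not at hcon
    apply hu0
    simp [hcon]
  refine ⟨f i, Submodule.subset_span ⟨i, rfl⟩, ?_⟩
  rw [hermForm_sum_left, Finset.sum_eq_single i]
  · rw [hf i i]
    simpa using hi
  · intro j _ hj
    rw [hf j i, if_neg hj, mul_zero]
  · intro h
    exact absurd (Finset.mem_univ i) h

/-- The nondegenerate `m`-spaces. -/
abbrev Om (F : Type*) [Field F] [Fintype F] (q n m : ℕ) : Type _ :=
  {W : Submodule F (Fin n → F) // Module.finrank F ↥W = m ∧ (∀ u ∈ W, u ≠ 0 → ∃ v ∈ W, hermForm n F q u v ≠ 0)}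

/-- Frames of a nondegenerate space. -/
theorem card_fiber (hF : Fintype.card F = q ^ 2) {m : ℕ} (W : Om F q n m) :
    Nat.card {f : Frames F q n m // Submodule.span F (Set.range f.1) = W.1} = Nat.card (Frames F q m m) := by
  classical
  obtain ⟨W, hWm, hWn⟩ := W
  obtain ⟨e, he, heW, hes⟩ := exists_frame_of_nondeg hF W hWm (by
    intro u hu h
    by_contra h0
    obtain ⟨v, hv, huv⟩ := hWn u hu h0
    exact huv (h v hv))
  have hΦ : ∀ a b : Fin m → F, hermForm n F q (∑ j, a j • e j) (∑ j, b j • e j) = hermForm m F q a b := by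
    intro a b
    rw [hermForm_sum_left, hermForm_apply]
    refine Finset.sum_congr rfl fun j _ => ?_
    rw [hermForm_sum_right hF, Finset.sum_eq_single j]
    · rw [he j j]
      simp
    · intro i _ hij
      rw [he j i, if_neg (Ne.symm hij), mul_zero]
    · intro h
      exact absurd (Finset.mem_univ j) h
  have hcoord : ∀ a : Fin m → F, ∀ l, hermForm n F q (∑ j, a j • e j) (e l) = a l := by
    intro a l
    rw [hermForm_sum_left, Finset.sum_eq_single l]
    · rw [he l l]
      simp
    · intro i _ hij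
      rw [he i l, if_neg hij, mul_zero]
    · intro h
      exact absurd (Finset.mem_univ l) h
  have hexp : ∀ u ∈ W, u = ∑ j, hermForm n F q u (e j) • e j := by
    intro u hu
    obtain ⟨c, rfl⟩ := hes u hu
    refine Finset.sum_congr rfl fun j _ => ?_
    rw [hcoord]
  have hmemΦ : ∀ a : Fin m → F, (∑ j, a j • e j) ∈ W := fun a =>
    Submodule.sum_mem _ fun j _ => W.smul_mem _ (heW j)
  symm
  refine Nat.card_congr ⟨fun g => ⟨⟨fun i => ∑ j, g.1 i j • e j, fun i j => ?_⟩, ?_⟩,
    fun f => ⟨fun i j => hermForm n F q (f.1.1 i) (e j), fun i j => ?_⟩, fun g => ?_, fun f => ?_⟩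
  · rw [hΦ]
    exact g.2 i j
  · apply Submodule.eq_of_le_of_finrank_eq
    · rw [Submodule.span_le]
      rintro _ ⟨i, rfl⟩
      exact hmemΦ _
    · rw [hWm]
      exact finrank_span_frame (f := fun i => ∑ j, g.1 i j • e j) (fun i j => by
        rw [hΦ]
        exact g.2 i j)
  · have hfW : ∀ i, f.1.1 i ∈ W := fun i => by
      have h9 : Submodule.span F (Set.range f.1.1) = W := f.2
      have h10 : f.1.1 i ∈ Submodule.span F (Set.range f.1.1) := Submodule.subset_span ⟨i, rfl⟩
      rwa [h9] at h10
    rw [← hΦ, ← hexp _ (hfW i), ← hexp _ (hfW j)]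
    exact f.1.2 i j
  · apply Subtype.ext
    funext i j
    exact hcoord _ j
  · apply Subtype.ext
    apply Subtype.ext
    funext i
    have hfW : f.1.1 i ∈ W := by
      have h9 : Submodule.span F (Set.range f.1.1) = W := f.2
      have h10 : f.1.1 i ∈ Submodule.span F (Set.range f.1.1) := Submodule.subset_span ⟨i, rfl⟩
      rwa [h9] at h10
    exact (hexp _ hfW).symm

/-- The number of frames. -/
theorem card_frames_eq (hF : Fintype.card F = q ^ 2) (m : ℕ) :
    Nat.card (Frames F q n m) = Nat.card (Om F q n m) * Nat.card (Frames F q m m) := by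
  classical
  let π : Frames F q n m → Om F q n m := fun f =>
    ⟨Submodule.span F (Set.range f.1), finrank_span_frame f.2, nd_span_frame f.2⟩
  haveI : Fintype (Om F q n m) := Fintype.ofFinite _
  have h1 := Nat.card_congr (Equiv.sigmaFiberEquiv π)
  rw [← h1, Nat.card_sigma]
  have h2 : ∀ W : Om F q n m, Nat.card {x // π x = W} = Nat.card (Frames F q m m) := by
    intro W
    rw [← card_fiber hF W]
    apply Nat.card_congr
    refine Equiv.subtypeEquivRight fun x => ?_
    constructor
    · intro h
      exact congrArg Subtype.val h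
    · intro h
      exact Subtype.ext h
  simp_rw [h2]
  rw [Finset.sum_const, Finset.card_univ, smul_eq_mul, ← Nat.card_eq_fintype_card]

/-- A prime dividing the number of nondegenerate subspaces. -/
theorem not_dvd_count {p : ℕ} [Fact p.Prime] [CharP F p] (hF : Fintype.card F = q ^ 2) {r : ℕ} [Fact r.Prime]
    (hrp : r ≠ p) {m c : ℕ} (hc : c = orderOf (-(q : ZMod r))) (hc0 : 0 < c) (hmc : m < c) (hmn : m ≤ n)
    (hs : m ≤ n % c) : ¬ r ∣ Nat.card (Om F q n m) := by
  classical
  intro hdvd
  have hr : r.Prime := Fact.out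
  have hp : p.Prime := Fact.out
  have hq := two_le_q hF
  have h1 : r ∣ Nat.card (Frames F q n m) := by
    rw [card_frames_eq hF m]
    exact hdvd.mul_right _
  rw [card_frames hF n m hmn] at h1
  obtain ⟨j, hj, hrj⟩ := (hr.prime.dvd_finsetProd_iff _).1 h1
  have hjm := Finset.mem_range.1 hj
  set k := n - j with hk
  have hkpos : 1 ≤ k := by
    have := Nat.mod_le n c
    omega
  have hcard : cnt F q k 1 = (if Even k then q ^ (k - 1) * (q ^ k - 1) else q ^ (k - 1) * (q ^ k + 1)) :=
    card_norm_one hF k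
  have hrq : ¬ r ∣ q := by
    obtain ⟨p', f, hp', hc', hqp⟩ := exists_char_pow hF
    have hpp : p' = p := CharP.eq F hc' ‹CharP F p›
    subst hpp
    intro h
    rw [hqp] at h
    exact hrp ((Nat.prime_dvd_prime_iff_eq hr hp').1 (hr.dvd_of_dvd_pow h))
  have hpowm : ((-(q : ZMod r))) ^ k = 1 := by
    rw [hcard] at hrj
    rw [neg_pow]
    have hq1 : 1 ≤ q ^ k := Nat.one_le_pow _ _ (by omega)
    split_ifs at hrj with hev
    · have h2 := (hr.dvd_mul.1 hrj).resolve_left (fun h => hrq (hr.dvd_of_dvd_pow h))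
      rw [← ZMod.natCast_eq_zero_iff, Nat.cast_sub hq1, Nat.cast_one, Nat.cast_pow, sub_eq_zero] at h2
      rw [hev.neg_one_pow, h2, one_mul]
    · have h2 := (hr.dvd_mul.1 hrj).resolve_left (fun h => hrq (hr.dvd_of_dvd_pow h))
      rw [← ZMod.natCast_eq_zero_iff, Nat.cast_add, Nat.cast_one, Nat.cast_pow] at h2
      rw [(Nat.not_even_iff_odd.1 hev).neg_one_pow]
      linear_combination -h2
  have hck : c ∣ k := by
    rw [hc]
    exact orderOf_dvd_of_pow_eq_one hpowm
  obtain ⟨l, hl⟩ := hck
  have h3 := Nat.div_add_mod n c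
  set t := n / c with ht
  have hmodlt := Nat.mod_lt n hc0
  have h4 : c * t < c * l := by
    rw [← hl]
    omega
  have h5 : c * l < c * (t + 1) := by
    rw [← hl, mul_add, mul_one]
    omega
  have h6 := Nat.lt_of_mul_lt_mul_left h4
  have h7 := Nat.lt_of_mul_lt_mul_left h5
  omega

end Cfsg.Agent.Lib.Classical.ElusiveU.Count
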