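import Mathlib
import Cfsg.Agent.Lib.Classical.ElusiveU.Atoms
import Cfsg.Agent.Lib.Classical.Elusive.PslJordan
import Cfsg.Agent.Lib.Classical.Herm.SU

/-!
# Models of elements of `SU_n(q)`
-/

set_option autoImplicit false
set_option linter.unusedSectionVars false
set_option linter.unusedSimpArgs false
set_option linter.unusedVariables false
set_option linter.style.haveILetI false

namespace Cfsg.Agent.Lib.Classical.ElusiveU.Models

open Module Polynomial
open Cfsg Cfsg.Agent.Lib.Classical.Herm.Basic Cfsg.Agent.Lib.Classical.Herm.GU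
  Cfsg.Agent.Lib.Classical.Elusive.Inv Cfsg.Agent.Lib.Classical.Herm.Wall
  Cfsg.Agent.Lib.Classical.Elusive.JordanType
  Cfsg.Agent.Lib.Linalg.RCF Cfsg.Agent.Lib.Linalg.RCFType
  Cfsg.Agent.Lib.Classical.Herm.CycGU

variable {F : Type*} [Field F] [Fintype F] {q n : ℕ}

/-- The reverse of a binomial. -/
theorem reverse_X_pow_sub_C {r : ℕ} (hr : 0 < r) (a : F) :
    (X ^ r - C a : F[X]).reverse = 1 - C a * X ^ r := by
  rw [reverse, natDegree_X_pow_sub_C, sub_eq_add_neg, reflect_add, reflect_neg, reflect_monomial, reflect_C,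
    revAt_le le_rfl, Nat.sub_self, pow_zero, ← sub_eq_add_neg]

/-- The dual of a binomial. -/
theorem dualP_X_pow_sub_C (hF : Fintype.card F = q ^ 2) {r : ℕ} (hr : 0 < r) {z : F} (hz : z ≠ 0) :
    dualP hF (X ^ r - C z : F[X]) = X ^ r - C (z ^ q)⁻¹ := by
  have h1 : (X ^ r - C z : F[X]).map (sigma hF) = X ^ r - C (z ^ q) := by
    simp
  have h2 : (X ^ r - C (z ^ q) : F[X]).coeff 0 = -z ^ q := by
    rw [coeff_sub, coeff_X_pow, if_neg hr.ne, coeff_C_zero, zero_sub]
  have hzq : z ^ q ≠ 0 := pow_ne_zero _ hz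
  rw [dualP, h1, h2, reverse_X_pow_sub_C hr]
  have h3 : C ((-z ^ q)⁻¹) * (1 - C (z ^ q) * X ^ r) = C ((-z ^ q)⁻¹) - C ((-z ^ q)⁻¹ * z ^ q) * X ^ r := by
    rw [C_mul]
    ring
  rw [h3, inv_neg, neg_mul, inv_mul_cancel₀ hzq]
  simp only [C_neg, C_1]
  ring

theorem inv_pow_q_eq {z : F} (hz : z ^ (q + 1) = 1) : (z ^ q)⁻¹ = z := by
  have h1 : z ^ q * z = 1 := by rw [← pow_succ, hz]
  exact inv_eq_of_mul_eq_one_right h1

/-- Semisimple models. -/
theorem exists_ss_model {p : ℕ} [Fact p.Prime] [CharP F p] (hF : Fintype.card F = q ^ 2) (hn : n ≠ 0) {f : F[X]}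
    (hfm : f.Monic) (hfd : f.natDegree = n) (h0 : f.coeff 0 ≠ 0) (hdual : dualP hF f = f) {r N : ℕ} (hN : N ≠ 0)
    {z : F} (hdvd : f ∣ (X ^ r - C z) ^ N) :
    ∃ M : Matrix (Fin n) (Fin n) F, Preserves q M ∧ M ^ r = z • 1 ∧ M.charpoly = f := by
  classical
  haveI : Nonempty (Fin n) := Fin.pos_iff_nonempty.1 (Nat.pos_of_ne_zero hn)
  obtain ⟨G, hGord, hGc⟩ := exists_GU_of_dualP hF (p := p) hfm hfd h0 hdual
  set M : Matrix (Fin n) (Fin n) F := ((G : Matrix.GeneralLinearGroup (Fin n) F) : Matrix (Fin n) (Fin n) F) with hM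
  have hP : Preserves q M := G.2
  refine ⟨M, hP, ?_, hGc⟩
  have hf0 : Polynomial.aeval M f = 0 := by
    rw [← hGc]
    exact Matrix.aeval_self_charpoly M
  have h2 : (M ^ r - z • 1) ^ N = 0 := by
    obtain ⟨e, he⟩ := hdvd
    have h3 := congrArg (Polynomial.aeval M) he
    rw [map_mul, hf0, zero_mul, map_pow, map_sub, map_pow, aeval_X, aeval_C,
      Algebra.algebraMap_eq_smul_one] at h3
    exact h3
  have hp1 : 1 < p := (Fact.out : p.Prime).one_lt
  have h3 : (M ^ r - z • 1) ^ (p ^ N) = 0 :=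
    pow_eq_zero_of_le (Nat.lt_pow_self hp1).le h2
  have hcomm : Commute (M ^ r) (z • (1 : Matrix (Fin n) (Fin n) F)) := by
    apply Commute.smul_right
    exact Commute.one_right _
  rw [sub_pow_char_pow_of_commute p N hcomm, sub_eq_zero] at h3
  have hco : (p ^ N).Coprime (orderOf G) :=
    (Nat.Coprime.pow_left N (Nat.Coprime.symm hGord))
  obtain ⟨l, hl⟩ := exists_pow_eq_self_of_coprime hco
  have hMl : (M ^ (p ^ N)) ^ l = M := by
    have := congrArg (fun g : Cfsg.GU n F q => ((g : Matrix.GeneralLinearGroup (Fin n) F) : Matrix (Fin n) (Fin n) F)) hl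
    simpa using this
  have h4 : M ^ r = ((z ^ (p ^ N)) ^ l) • (1 : Matrix (Fin n) (Fin n) F) := by
    calc M ^ r = ((M ^ (p ^ N)) ^ l) ^ r := by rw [hMl]
      _ = ((M ^ r) ^ (p ^ N)) ^ l := by
        rw [← pow_mul, ← pow_mul, ← pow_mul, ← pow_mul]
        congr 1
        ring
      _ = ((z ^ (p ^ N)) ^ l) • (1 : Matrix (Fin n) (Fin n) F) := by
        rw [h3, _root_.smul_pow, one_pow, _root_.smul_pow, one_pow]
  rw [h4, ← sub_smul, _root_.smul_pow, one_pow] at h2
  have h5 : ((z ^ (p ^ N)) ^ l - z) ^ N = 0 := (smul_eq_zero.1 h2).resolve_right one_ne_zero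
  have h6 := sub_eq_zero.1 (pow_eq_zero_iff hN |>.1 h5)
  rw [h4, h6]

theorem det_of_charpoly (M : Matrix (Fin n) (Fin n) F) {f : F[X]} (h : M.charpoly = f) :
    M.det = (-1) ^ n * f.coeff 0 := by
  rw [Matrix.det_eq_sign_charpoly_coeff, h, Fintype.card_fin]

/-- Models with `x ^ r = z`. -/
theorem exists_model_pow {p : ℕ} [Fact p.Prime] [CharP F p] (hF : Fintype.card F = q ^ 2) {r t : ℕ} (hr : 0 < r)
    (ht : 0 < t) (hn : n = r * t) {z : F} (hz0 : z ≠ 0) (hz : z ^ (q + 1) = 1) :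
    ∃ M : Matrix (Fin n) (Fin n) F, Preserves q M ∧ M ^ r = z • 1 ∧ M.det = (-1) ^ n * (-z) ^ t := by
  have hn0 : n ≠ 0 := by
    rw [hn]
    exact (Nat.mul_pos hr ht).ne'
  have hc : ((X ^ r - C z : F[X]) ^ t).coeff 0 = (-z) ^ t := by
    rw [coeff_zero_eq_eval_zero, eval_pow]
    simp [hr.ne']
  obtain ⟨M, h1, h2, h3⟩ := exists_ss_model (n := n) (p := p) hF hn0 (f := (X ^ r - C z : F[X]) ^ t)
    ((monic_X_pow_sub_C z hr.ne').pow t)
    (by rw [natDegree_pow, natDegree_X_pow_sub_C, hn, mul_comm])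
    (by rw [hc]; exact pow_ne_zero _ (neg_ne_zero.2 hz0))
    (by rw [dualP_pow, dualP_X_pow_sub_C hF hr hz0, inv_pow_q_eq hz])
    ht.ne' (r := r) (z := z) dvd_rfl
  exact ⟨M, h1, h2, by rw [det_of_charpoly M h3, hc]⟩

/-- Unipotent models. -/
theorem exists_model_unip {p : ℕ} [Fact p.Prime] [CharP F p] (hF : Fintype.card F = q ^ 2) (μ : Multiset ℕ)
    (hμ : ∀ a ∈ μ, 0 < a ∧ a ≤ p) (hs : μ.sum = n) (hne : ∃ a ∈ μ, 2 ≤ a) :
    ∃ M : Matrix (Fin n) (Fin n) F, Preserves q M ∧ M.det = 1 ∧ M ^ p = 1 ∧ (∀ z : F, M ≠ z • 1) ∧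
      ∀ k, finrank F ((⊤ : Submodule F (Fin n → F)).map ((Matrix.toLin' M - 1) ^ k)) = gg μ k := by
  classical
  have hn0 : n ≠ 0 := by
    obtain ⟨a, ha, ha2⟩ := hne
    rw [← hs]
    have := Multiset.single_le_sum (fun x _ => Nat.zero_le x) a ha
    omega
  haveI : Nonempty (Fin n) := Fin.pos_iff_nonempty.1 (Nat.pos_of_ne_zero hn0)
  have hX1 : (X - 1 : F[X]) = X - C 1 := by rw [C_1]
  have hX1m : (X - 1 : F[X]).Monic := by rw [hX1]; exact monic_X_sub_C 1
  have hX1i : Irreducible (X - 1 : F[X]) := by rw [hX1]; exact irreducible_X_sub_C 1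
  have hX1d : (X - 1 : F[X]).natDegree = 1 := by rw [hX1]; exact natDegree_X_sub_C 1
  have hX1X : (X - 1 : F[X]) ≠ X := by
    intro h
    have := congrArg (eval 0) h
    simp at this
  set τ : Multiset (F[X] × ℕ) := μ.map (fun e => ((X - 1 : F[X]), e)) with hτ
  have hτG : IsGLType (Fin n) F τ := by
    constructor
    · intro a ha
      obtain ⟨e, he, rfl⟩ := Multiset.mem_map.1 ha
      exact ⟨⟨hX1m, hX1i, (hμ e he).1⟩, hX1X⟩
    · rw [hτ, Multiset.map_map, Fintype.card_fin, ← hs]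
      simp [hX1d]
  have hd : dualT hF τ = τ := by
    rw [dualT, hτ, Multiset.map_map]
    apply Multiset.map_congr rfl
    intro e _
    simp [dualP_X_sub_one]
  obtain ⟨g, hg⟩ := exists_GU_of_type hF hτG hd
  set M : Matrix (Fin n) (Fin n) F := ((g : Matrix.GeneralLinearGroup (Fin n) F) : Matrix (Fin n) (Fin n) F) with hM
  have hP : Preserves q M := g.2
  set T := Matrix.toLin' M with hT
  have hrank : ∀ k, finrank F ((⊤ : Submodule F (Fin n → F)).map ((T - 1) ^ k)) = gg μ k := by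
    intro k
    have h1 := finrank_range_aeval_type T hX1m hX1i k
    have h2 : typeOf T = τ := hg
    rw [h2, hτ, Multiset.map_map] at h1
    have h3 : Polynomial.aeval T ((X - 1 : F[X]) ^ k) = (T - 1) ^ k := by
      simp
    rw [h3] at h1
    rw [Submodule.map_top]
    have h4 : (LinearMap.range ((T - 1) ^ k)) = LinearMap.range ((T - 1) ^ k) := rfl
    convert h1 using 2
    unfold gg
    congr 1
    apply Multiset.map_congr rfl
    intro e _
    simp [hX1d]
  have hTp : (T - 1) ^ p = 0 := by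
    have h1 := hrank p
    rw [gg_eq_zero (fun e he => (hμ e he).2), Submodule.finrank_eq_zero, Submodule.map_top] at h1
    exact LinearMap.range_eq_bot.1 h1
  have hTp1 : T ^ p = 1 := by
    have h1 := sub_one_pow_char (p := p) T
    rw [hTp] at h1
    exact (sub_eq_zero.1 h1.symm)
  have hMp : M ^ p = 1 := by
    apply Matrix.toLin'.injective
    rw [Matrix.toLin'_pow, Matrix.toLin'_one]
    exact hTp1
  have hdet : M.det = 1 := by
    have h1 : M.det ^ p = 1 := by
      rw [← Matrix.det_pow, hMp, Matrix.det_one]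
    exact Cfsg.Agent.Lib.Classical.Elusive.PslJordan.eq_one_of_pow_char h1
  refine ⟨M, hP, hdet, hMp, ?_, hrank⟩
  intro z hz
  have h1 : z ^ p = 1 := by
    have h2 := hMp
    rw [hz, _root_.smul_pow, one_pow] at h2
    have h3 : (z ^ p - 1) • (1 : Matrix (Fin n) (Fin n) F) = 0 := by
      rw [sub_smul, h2, one_smul, sub_self]
    exact sub_eq_zero.1 ((smul_eq_zero.1 h3).resolve_right one_ne_zero)
  have h2 := Cfsg.Agent.Lib.Classical.Elusive.PslJordan.eq_one_of_pow_char h1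
  have h3 : T = 1 := by
    rw [hT, hz, h2, one_smul, Matrix.toLin'_one]
    rfl
  have h4 := hrank 1
  rw [h3, sub_self, pow_one, Submodule.map_zero, finrank_bot] at h4
  obtain ⟨a, ha, ha2⟩ := hne
  have h5 := le_of_gg_eq_zero h4.symm a ha
  omega

end Cfsg.Agent.Lib.Classical.ElusiveU.Models
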