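import Mathlib
import Cfsg.Agent.Lib.Classical.ElusiveU.Models
import Cfsg.Agent.Lib.Classical.ElusiveU.Count
import Cfsg.Agent.Lib.Classical.Elusive.PslSplit

/-!
# Elements of prime order of `PSU_n(q)` and nondegenerate subspaces: the cases `r = p` and `r = 2`
-/

set_option autoImplicit false
set_option linter.unusedSectionVars false
set_option linter.unusedSimpArgs false
set_option linter.unusedVariables false
set_option linter.style.haveILetI false

namespace Cfsg.Agent.Lib.Classical.ElusiveU.Main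

open Module Polynomial
open Cfsg Cfsg.Agent.Lib.Classical.Herm.Basic Cfsg.Agent.Lib.Classical.Herm.GU
  Cfsg.Agent.Lib.Classical.Elusive.Inv Cfsg.Agent.Lib.Classical.Herm.Wall
  Cfsg.Agent.Lib.Classical.Elusive.JordanType
  Cfsg.Agent.Lib.Classical.ElusiveU.Form Cfsg.Agent.Lib.Classical.ElusiveU.Atoms
  Cfsg.Agent.Lib.Classical.ElusiveU.Models
  Cfsg.Agent.Lib.Classical.Elusive.PslJordan
  Cfsg.Agent.Lib.Classical.Elusive.PslModel Cfsg.Agent.Lib.Classical.Elusive.PslNum
  Cfsg.Agent.Lib.Classical.Elusive.PslMain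

variable {F : Type*} [Field F] [Fintype F] {q n : ℕ}

/-- The left-hand side of the criterion. -/
def LHS (F : Type*) [Field F] [Fintype F] (q n m r : ℕ) : Prop :=
  ∀ x : Matrix.SpecialLinearGroup (Fin n) F, x ∈ Cfsg.SU n F q →
      (∃ z : F, ((x ^ r : Matrix.SpecialLinearGroup (Fin n) F) : Matrix (Fin n) (Fin n) F) = z • (1 : Matrix (Fin n) (Fin n) F)) →
      (∀ z : F, (x : Matrix (Fin n) (Fin n) F) ≠ z • (1 : Matrix (Fin n) (Fin n) F)) →
      ∃ W : Submodule F (Fin n → F), Module.finrank F ↥W = m ∧ (∀ u ∈ W, u ≠ 0 → ∃ v ∈ W, Cfsg.hermForm n F q u v ≠ 0) ∧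
        W.map (Matrix.toLin' (x : Matrix (Fin n) (Fin n) F)) ≤ W

theorem iso_of_preserves {M : Matrix (Fin n) (Fin n) F} (h : Preserves q M) : Iso q (Matrix.toLin' M) := by
  intro u v
  rw [Matrix.toLin'_apply, Matrix.toLin'_apply]
  exact h u v

theorem iso_smul {a : F} (ha : a ^ (q + 1) = 1) {T : Module.End F (Fin n → F)} (hT : Iso q T) : Iso q (a • T) := by
  intro u v
  rw [LinearMap.smul_apply, LinearMap.smul_apply, hermForm_smul_left, hermForm_smul_right, hT, ← mul_assoc,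
    ← pow_succ', ha, one_mul]

/-- A scalar power of an isometry has norm one. -/
theorem norm_of_iso (hF : Fintype.card F = q ^ 2) (hn : n ≠ 0) {T : Module.End F (Fin n → F)} (hT : Iso q T) {r : ℕ}
    {z : F} (hz : T ^ r = z • 1) : z ^ (q + 1) = 1 := by
  haveI : Nonempty (Fin n) := Fin.pos_iff_nonempty.1 (Nat.pos_of_ne_zero hn)
  have h0 : (⊤ : Submodule F (Fin n → F)) ≠ ⊥ := top_ne_bot
  obtain ⟨v, -, hv⟩ := exists_aniso hF (top_nd hF) h0
  have h1 := hT.pow r v v
  rw [hz, LinearMap.smul_apply, Module.End.one_apply, hermForm_smul_left, hermForm_smul_right, ← mul_assoc] at h1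
  have h2 : (z * z ^ q) = 1 := by
    apply mul_right_cancel₀ hv
    rw [h1, one_mul]
  rw [pow_succ']
  exact h2

theorem lhs_intro (hF : Fintype.card F = q ^ 2) (hn : n ≠ 0) {m r : ℕ}
    (h : ∀ T : Module.End F (Fin n → F), Iso q T → ∀ z : F, T ^ r = z • 1 → z ≠ 0 → z ^ (q + 1) = 1 →
      LinearMap.det T = 1 → (∀ z : F, T ≠ z • 1) → ∃ W : Submodule F (Fin n → F), finrank F W = m ∧ Nd q W ∧ IsInv T W) :
    LHS F q n m r := by
  intro x hx ⟨z, hz⟩ hns
  have hz0 := scalar_ne_zero hn x hz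
  have hTr := toLin_pow x hz
  have hiso : Iso q (Matrix.toLin' (x : Matrix (Fin n) (Fin n) F)) := iso_of_preserves hx
  obtain ⟨W, h1, h2, h3⟩ := h _ hiso z hTr hz0 (norm_of_iso hF hn hiso hTr)
    (by rw [LinearMap.det_toLin']; exact x.2)
    (fun c hc => hns c (by
      apply Matrix.toLin'.injective
      rw [hc, map_smul, Matrix.toLin'_one]
      rfl))
  exact ⟨W, h1, h2, fun _ ⟨u, hu, hu'⟩ => hu' ▸ h3 u hu⟩

theorem lhs_elim {m r : ℕ} (H : LHS F q n m r) {M : Matrix (Fin n) (Fin n) F} (hP : Preserves q M) (hdet : M.det = 1)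
    {z : F} (hz : M ^ r = z • 1) (hns : ∀ z : F, M ≠ z • 1) :
    ∃ W : Submodule F (Fin n → F), finrank F W = m ∧ Nd q W ∧ IsInv (Matrix.toLin' M) W := by
  let x : Matrix.SpecialLinearGroup (Fin n) F := ⟨M, hdet⟩
  obtain ⟨W, h1, h2, h3⟩ := H x hP ⟨z, by
    rw [Matrix.SpecialLinearGroup.coe_pow]
    exact hz⟩ hns
  exact ⟨W, h1, h2, fun u hu => h3 ⟨u, hu, rfl⟩⟩

section P

variable {p : ℕ} [Fact p.Prime] [CharP F p]

/-- The case `r = p`. -/
theorem main_p (hF : Fintype.card F = q ^ 2) (hn : n ≠ 0) {m : ℕ} (hmn : m ≤ n) :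
    LHS F q n m p ↔ (∀ μ : Multiset ℕ, (∀ a ∈ μ, 0 < a ∧ a ≤ p) → μ.sum = n → ∃ ν : Multiset ℕ, ν ≤ μ ∧ ν.sum = m) := by
  classical
  have hp : p.Prime := Fact.out
  constructor
  · intro H μ hμ hs
    by_cases hne : ∃ b ∈ μ, 2 ≤ b
    · obtain ⟨M, hP, hdet, hMp, hns, hrk⟩ := exists_model_unip hF μ hμ hs hne
      obtain ⟨W, h1, h2, h3⟩ := lhs_elim H hP hdet (z := 1) (by rw [hMp, one_smul]) hns
      have hT := iso_of_preserves hP
      set T := Matrix.toLin' M with hTdef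
      have hTp : T ^ p = 1 := by
        rw [hTdef, ← Matrix.toLin'_pow, hMp, Matrix.toLin'_one]
        rfl
      obtain ⟨ν, ν', h5, -, -, h6, -⟩ := type_add (N_pow hTp) (isInv_N h3) (isInv_N (inv_perp hF hT h3))
        (inf_perp_eq_bot h2)
        (by simpa using sup_perp_eq hF h2 (le_top : W ≤ ⊤)) (fun b hb => (hμ b hb).1) hrk
      refine ⟨ν, ?_, ?_⟩
      · rw [h5]
        exact Multiset.le_add_right _ _
      · rw [← finrank_eq_sum_of_type h6, h1]
    · push Not at hne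
      have h1 : μ = Multiset.replicate n 1 := by
        rw [Multiset.eq_replicate]
        have h2 : ∀ b ∈ μ, b = 1 := by
          intro b hb
          have h3 := hne b hb
          have h4 := (hμ b hb).1
          omega
        refine ⟨?_, h2⟩
        have h3 : μ = Multiset.replicate (Multiset.card μ) 1 := Multiset.eq_replicate.2 ⟨rfl, h2⟩
        rw [← hs]
        conv_rhs => rw [h3]
        simp
      refine ⟨Multiset.replicate m 1, ?_, by simp⟩
      rw [h1]
      exact Multiset.replicate_le_replicate _ |>.2 hmn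
  · intro h
    apply lhs_intro hF hn
    intro T hT z hTz hz0 hzq _ _
    obtain ⟨a, ha⟩ : ∃ a : F, a ^ p = z := by
      have h1 : Function.Surjective (fun a : F => a ^ p) := by
        apply Finite.injective_iff_surjective.1
        exact frobenius_inj F p
      exact h1 z
    have ha0 : a ≠ 0 := by
      rintro rfl
      rw [zero_pow hp.ne_zero] at ha
      exact hz0 ha.symm
    have haq : a ^ (q + 1) = 1 := by
      apply eq_one_of_pow_char (p := p)
      rw [← pow_mul, mul_comm, pow_mul, ha, hzq]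
    have hainv : (a⁻¹) ^ (q + 1) = 1 := by
      rw [inv_pow, haq, inv_one]
    have hy : Iso q (a⁻¹ • T) := iso_smul hainv hT
    have hyp : (a⁻¹ • T) ^ p = 1 := pow_smul_inv ha0 ha hTz
    have hN : ((a⁻¹ • T) - 1) ^ p = 0 := N_pow hyp
    obtain ⟨μ, hμ, hs, hr⟩ := exists_real hF hy (fun d => 0 < d ∧ d ≤ p) (fun S hS hSn hS0 => by
      obtain ⟨W, h1, h2, h3, h4, h5⟩ := atom_unip hF hy hN hS hSn hS0
      refine ⟨W, h1, h2, h3, h4, ?_, h5⟩
      rw [Nat.pos_iff_ne_zero, Ne, Submodule.finrank_eq_zero]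
      exact h4) ⊤ (isInv_top _) (top_nd hF)
    rw [finrank_top, finrank_fin_fun] at hs
    obtain ⟨ν, hν, hν'⟩ := h μ hμ hs
    obtain ⟨W, -, h2, h3, h4⟩ := hr ν hν
    exact ⟨W, by rw [h4, hν'], h3, (isInv_smul_iff (inv_ne_zero ha0)).1 h2⟩

end P

section Factor

/-- A monic irreducible factor of a product of two linear polynomials. -/
theorem eq_of_dvd_two {g : F[X]} (hm : g.Monic) (hi : Irreducible g) {a b : F}
    (h : g ∣ (X - C a) * (X - C b)) : g = X - C a ∨ g = X - C b := by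
  rcases hi.prime.dvd_or_dvd h with h1 | h1
  · left
    exact (eq_of_monic_of_dvd_of_natDegree_le hm (monic_X_sub_C a) h1 (by
      rw [natDegree_X_sub_C]
      exact hi.natDegree_pos)).symm
  · right
    exact (eq_of_monic_of_dvd_of_natDegree_le hm (monic_X_sub_C b) h1 (by
      rw [natDegree_X_sub_C]
      exact hi.natDegree_pos)).symm

theorem dualP_X_sub_C (hF : Fintype.card F = q ^ 2) {a : F} (ha : a ≠ 0) :
    dualP hF (X - C a : F[X]) = X - C (a ^ q)⁻¹ := by
  simpa using dualP_X_pow_sub_C hF (r := 1) one_pos ha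

/-- The polynomial `X ^ r - z` is annihilating and self-dual. -/
theorem atoms_pow (hF : Fintype.card F = q ^ 2) {T : Module.End F (Fin n → F)} (hT : Iso q T) {r : ℕ} (hr : 0 < r)
    (hr0 : (r : F) ≠ 0) {z : F} (hz0 : z ≠ 0) (hzq : z ^ (q + 1) = 1) (hTz : T ^ r = z • 1)
    {S : Submodule F (Fin n → F)} (hS : IsInv T S) (hSn : Nd q S) (hS0 : S ≠ ⊥) :
    ∃ g : F[X], g.Monic ∧ Irreducible g ∧ g ∣ (X ^ r - C z) ∧ ∃ W ≤ S, IsInv T W ∧ Nd q W ∧ W ≠ ⊥ ∧
      ((dualP hF g = g ∧ finrank F W = g.natDegree ∧ ∀ w ∈ W, Polynomial.aeval T g w = 0) ∨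
        (dualP hF g ≠ g ∧ finrank F W = 2 * g.natDegree)) := by
  apply exists_atom hF hT (aeval_X_pow_sub_C hTz) (separable_X_pow_sub_C z hr0 hz0)
    (by rw [dualP_X_pow_sub_C hF hr hz0, inv_pow_q_eq hzq])
    (by
      rw [coeff_sub, coeff_X_pow, if_neg hr.ne, coeff_C_zero, zero_sub]
      exact neg_ne_zero.2 hz0) hS hSn hS0

end Factor

section Two

variable {p : ℕ} [Fact p.Prime] [CharP F p]

theorem odd_q (hF : Fintype.card F = q ^ 2) (hp2 : p ≠ 2) : Odd q := by
  obtain ⟨p', f, hp', hc', hqp⟩ := exists_char_pow hF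
  have hpp : p' = p := CharP.eq F hc' ‹CharP F p›
  subst hpp
  rw [hqp]
  exact (hp'.odd_of_ne_two hp2).pow

/-- The product `(X - w) (X + w)`. -/
theorem two_factor (w : F) : (X ^ 2 - C (w ^ 2) : F[X]) = (X - C w) * (X - C (-w)) := by
  rw [C_neg, C_pow]
  ring

/-- Blocks when `x^2 = w^2`, `w^(q+1) = 1`. -/
theorem atoms_A (hF : Fintype.card F = q ^ 2) (hq : Odd q) (h2 : ((2 : ℕ) : F) ≠ 0) {T : Module.End F (Fin n → F)}
    (hT : Iso q T) {w : F} (hw0 : w ≠ 0) (hT2 : T ^ 2 = (w ^ 2) • 1) (hwq : w ^ (q + 1) = 1)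
    (S : Submodule F (Fin n → F)) (hS : IsInv T S) (hSn : Nd q S) (hS0 : S ≠ ⊥) :
    ∃ W ≤ S, IsInv T W ∧ Nd q W ∧ W ≠ ⊥ ∧ finrank F W = 1 := by
  have hz0 : w ^ 2 ≠ 0 := pow_ne_zero _ hw0
  have hzq : (w ^ 2) ^ (q + 1) = 1 := by
    rw [← pow_mul, mul_comm, pow_mul, hwq, one_pow]
  obtain ⟨g, hm, hi, hg, W, h1, h2', h3, h4, h5⟩ := atoms_pow hF hT two_pos h2 hz0 hzq hT2 hS hSn hS0
  rw [two_factor] at hg
  have hev : Even (q + 1) := hq.add_one
  have hgd : dualP hF g = g ∧ g.natDegree = 1 := by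
    rcases eq_of_dvd_two hm hi hg with rfl | rfl
    · rw [dualP_X_sub_C hF hw0, inv_pow_q_eq hwq, natDegree_X_sub_C]
      exact ⟨rfl, rfl⟩
    · have h6 : (-w) ^ (q + 1) = 1 := by
        rw [hev.neg_pow, hwq]
      rw [dualP_X_sub_C hF (neg_ne_zero.2 hw0), inv_pow_q_eq h6, natDegree_X_sub_C]
      exact ⟨rfl, rfl⟩
  refine ⟨W, h1, h2', h3, h4, ?_⟩
  rcases h5 with ⟨-, h6, -⟩ | ⟨h6, -⟩
  · rw [h6, hgd.2]
  · exact absurd hgd.1 h6

/-- Blocks when `x^2 = w^2`, `w^(q+1) = -1`. -/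
theorem atoms_B (hF : Fintype.card F = q ^ 2) (hq : Odd q) (h2 : ((2 : ℕ) : F) ≠ 0) {T : Module.End F (Fin n → F)}
    (hT : Iso q T) {w : F} (hw0 : w ≠ 0) (hT2 : T ^ 2 = (w ^ 2) • 1) (hwq : w ^ (q + 1) = -1)
    (S : Submodule F (Fin n → F)) (hS : IsInv T S) (hSn : Nd q S) (hS0 : S ≠ ⊥) :
    ∃ W ≤ S, IsInv T W ∧ Nd q W ∧ W ≠ ⊥ ∧ finrank F W = 2 := by
  have hz0 : w ^ 2 ≠ 0 := pow_ne_zero _ hw0
  have hzq : (w ^ 2) ^ (q + 1) = 1 := by
    rw [← pow_mul, mul_comm, pow_mul, hwq]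
    ring
  obtain ⟨g, hm, hi, hg, W, h1, h2', h3, h4, h5⟩ := atoms_pow hF hT two_pos h2 hz0 hzq hT2 hS hSn hS0
  rw [two_factor] at hg
  have hev : Even (q + 1) := hq.add_one
  have h20 : (2 : F) ≠ 0 := by exact_mod_cast h2
  have hinv : ∀ a : F, a ≠ 0 → a ^ (q + 1) = -1 → (a ^ q)⁻¹ = -a := by
    intro a ha0 ha
    apply inv_eq_of_mul_eq_one_right
    have : a ^ q * a = -1 := by rw [← pow_succ, ha]
    linear_combination -this
  have hne : ∀ a : F, a ≠ 0 → (X - C (-a) : F[X]) ≠ X - C a := by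
    intro a ha0 h
    have h6 : C (-a) = (C a : F[X]) := sub_right_injective h
    have h7 := C_injective h6
    apply ha0
    have h8 : (2 : F) * a = 0 := by linear_combination -h7
    exact (mul_eq_zero.1 h8).resolve_left h20
  have hgd : dualP hF g ≠ g ∧ g.natDegree = 1 := by
    rcases eq_of_dvd_two hm hi hg with rfl | rfl
    · rw [dualP_X_sub_C hF hw0, hinv w hw0 hwq, natDegree_X_sub_C]
      exact ⟨hne w hw0, rfl⟩
    · have h6 : (-w) ^ (q + 1) = -1 := by
        rw [hev.neg_pow, hwq]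
      rw [dualP_X_sub_C hF (neg_ne_zero.2 hw0), hinv _ (neg_ne_zero.2 hw0) h6, natDegree_X_sub_C]
      exact ⟨hne _ (neg_ne_zero.2 hw0), rfl⟩
  refine ⟨W, h1, h2', h3, h4, ?_⟩
  rcases h5 with ⟨h6, -⟩ | ⟨-, h6⟩
  · exact absurd h6 hgd.1
  · rw [h6, hgd.2]

/-- A vanishing criterion. -/
theorem pow_div_eq_one_of_val {M : Type*} [Monoid M] {x : M} {r A B : ℕ} (hr : r.Prime) (hA : A ≠ 0) (hB : B ≠ 0)
    (hxA : x ^ A = 1) (hxB : x ^ B = 1) (hval : padicValNat r B < padicValNat r A) : x ^ (A / r) = 1 := by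
  haveI : Fact r.Prime := ⟨hr⟩
  obtain ⟨α, u, hu, hAe⟩ := Nat.exists_eq_pow_mul_and_not_dvd hA r hr.ne_one
  obtain ⟨β, v, hv, hBe⟩ := Nat.exists_eq_pow_mul_and_not_dvd hB r hr.ne_one
  have hu0 : u ≠ 0 := by
    rintro rfl
    exact hu (dvd_zero _)
  have hv0 : v ≠ 0 := by
    rintro rfl
    exact hv (dvd_zero _)
  have hvA : padicValNat r A = α := by
    rw [hAe, padicValNat.mul (pow_ne_zero _ hr.ne_zero) hu0, padicValNat.prime_pow, padicValNat.eq_zero_of_not_dvd hu,
      add_zero]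
  have hvB : padicValNat r B = β := by
    rw [hBe, padicValNat.mul (pow_ne_zero _ hr.ne_zero) hv0, padicValNat.prime_pow, padicValNat.eq_zero_of_not_dvd hv,
      add_zero]
  rw [hvA, hvB] at hval
  obtain ⟨γ, rfl⟩ : ∃ γ, α = β + γ + 1 := ⟨α - β - 1, by omega⟩
  have hdiv : A / r = r ^ (β + γ) * u := by
    rw [hAe, pow_succ, show r ^ (β + γ) * r * u = r * (r ^ (β + γ) * u) by ring]
    exact Nat.mul_div_cancel_left _ hr.pos
  rw [hdiv]
  set x₁ := x ^ (r ^ (β + γ) * u) with hx₁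
  have h1 : x₁ ^ r = 1 := by
    rw [hx₁, ← pow_mul, ← hxA, hAe, pow_succ]
    congr 1
    ring
  have h2 : x₁ ^ v = 1 := by
    have h3 : r ^ (β + γ) * u * v = B * (r ^ γ * u) := by
      rw [hBe, pow_add]
      ring
    rw [hx₁, ← pow_mul, h3, pow_mul, hxB, one_pow]
  have h3 : orderOf x₁ ∣ r.gcd v := Nat.dvd_gcd (orderOf_dvd_of_pow_eq_one h1) (orderOf_dvd_of_pow_eq_one h2)
  rw [(hr.coprime_iff_not_dvd).2 hv] at h3
  exact orderOf_eq_one_iff.1 (Nat.dvd_one.1 h3)

/-- Elements of a given order. -/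
theorem exists_of_order (hF : Fintype.card F = q ^ 2) {d : ℕ} (hd : d ∣ q ^ 2 - 1) (hd0 : 0 < d) :
    ∃ ρ : F, ρ ≠ 0 ∧ orderOf ρ = d := by
  classical
  have hq₀ : 2 ≤ q := two_le_q hF
  obtain ⟨g, hg⟩ := IsCyclic.exists_ofOrder_eq_natCard (α := Fˣ)
  have hc : Nat.card Fˣ = q ^ 2 - 1 := by
    rw [Nat.card_eq_fintype_card, Fintype.card_units, hF]
  have hdvd : d ∣ orderOf g := by
    rw [hg, hc]
    exact hd
  have hpos : orderOf g ≠ 0 := by
    rw [hg, hc]
    have : 4 ≤ q ^ 2 := by nlinarith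
    omega
  have h1 := orderOf_pow_orderOf_div hpos hdvd
  refine ⟨((g ^ (orderOf g / d) : Fˣ) : F), Units.ne_zero _, ?_⟩
  rw [orderOf_units, h1]

theorem q_sq_sub_one (hq : 1 ≤ q) : q ^ 2 - 1 = (q + 1) * (q - 1) := by
  obtain ⟨m, rfl⟩ : ∃ m, q = m + 1 := ⟨q - 1, by omega⟩
  simp only [Nat.add_sub_cancel]
  rw [show (m + 1) ^ 2 = (m + 1 + 1) * m + 1 by ring]
  simp

/-- Elements of `F` of norm one are squares. -/
theorem exists_sqrt (hF : Fintype.card F = q ^ 2) (hq : Odd q) {z : F} (hz0 : z ≠ 0) (hzq : z ^ (q + 1) = 1) :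
    ∃ w : F, w ^ 2 = z := by
  have hq1 : 1 ≤ q := by
    have := two_le_q hF
    omega
  obtain ⟨s, hs⟩ := hq
  have hfac : Fintype.card F - 1 = 2 * ((q + 1) * s) := by
    rw [hF, q_sq_sub_one hq1, hs]
    simp only [Nat.add_sub_cancel]
    ring
  apply exists_root_of_pow Nat.prime_two (by rw [hfac]; exact dvd_mul_right _ _) hz0
  rw [hfac, Nat.mul_div_cancel_left _ two_pos, pow_mul, hzq, one_pow]

/-- Determinants of semisimple maps with two eigenvalues. -/
theorem det_two_eigen {T : Module.End F (Fin n → F)} {a b : F} {A B : Submodule F (Fin n → F)} (hc : IsCompl A B)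
    (hA : ∀ u ∈ A, T u = a • u) (hB : ∀ u ∈ B, T u = b • u) :
    LinearMap.det T = a ^ finrank F A * b ^ finrank F B := by
  classical
  let e := Submodule.prodEquivOfIsCompl A B hc
  let S : (A × B) →ₗ[F] (A × B) := LinearMap.prodMap (a • LinearMap.id) (b • LinearMap.id)
  have h1 : T = e.toLinearMap ∘ₗ S ∘ₗ e.symm.toLinearMap := by
    refine LinearMap.ext fun v => ?_
    obtain ⟨x, rfl⟩ := e.surjective v
    simp only [LinearMap.comp_apply, LinearEquiv.coe_coe, LinearEquiv.symm_apply_apply]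
    obtain ⟨⟨u, hu⟩, ⟨w, hw⟩⟩ := x
    have e1 : e (⟨u, hu⟩, ⟨w, hw⟩) = u + w := rfl
    have e2 : e (S (⟨u, hu⟩, ⟨w, hw⟩)) = a • u + b • w := rfl
    rw [e1, e2, map_add, hA u hu, hB w hw]
  rw [h1, LinearMap.det_conj, LinearMap.det_prodMap, LinearMap.det_smul, LinearMap.det_smul, LinearMap.det_id,
    LinearMap.det_id, mul_one, mul_one]

/-- Totally isotropic subspaces in duality. -/
theorem finrank_le_of_pair (hF : Fintype.card F = q ^ 2) {A B : Submodule F (Fin n → F)}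
    (h : ∀ u ∈ A, (∀ v ∈ B, hermForm n F q u v = 0) → u = 0) : finrank F A ≤ finrank F B := by
  classical
  let b := Module.finBasis F B
  let Φ : A →ₗ[F] (Fin (finrank F B) → F) :=
    { toFun := fun u i => hermForm n F q (u : Fin n → F) (b i : Fin n → F)
      map_add' := fun u v => by
        funext i
        simp [hermForm_add_left]
      map_smul' := fun c v => by
        funext i
        simp [hermForm_smul_left] }
  have hinj : Function.Injective Φ := by
    rw [injective_iff_map_eq_zero]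
    intro u hu
    apply Subtype.ext
    apply h u.1 u.2
    intro v hv
    have h1 : v = ∑ i, (b.repr ⟨v, hv⟩ i) • (b i : Fin n → F) := by
      have h2 := b.sum_repr ⟨v, hv⟩
      have h3 := congrArg Subtype.val h2
      simp only [Submodule.coe_sum, Submodule.coe_smul] at h3
      exact h3.symm
    rw [h1, Cfsg.Agent.Lib.Classical.Herm.Form.hermForm_sum_right hF]
    refine Finset.sum_eq_zero fun i _ => ?_
    have h4 := congrFun hu i
    have h5 : hermForm n F q (u : Fin n → F) (b i : Fin n → F) = 0 := h4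
    rw [h5, mul_zero]
  have h1 := LinearMap.finrank_le_finrank_of_injective hinj
  rwa [finrank_fin_fun] at h1

/-- The determinant of an element with `x ^ 2 = w ^ 2`, `w ^ (q + 1) = -1`. -/
theorem det_typeB (hF : Fintype.card F = q ^ 2) (h2 : (2 : F) ≠ 0) {T : Module.End F (Fin n → F)}
    (hT : Iso q T) {w : F} (hw0 : w ≠ 0) (hT2 : T ^ 2 = (w ^ 2) • 1) (hwq : w ^ (q + 1) = -1) :
    Even n ∧ LinearMap.det T = (-w ^ 2) ^ (n / 2) := by
  classical
  set A : Submodule F (Fin n → F) := LinearMap.ker (T - w • 1) with hA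
  set B : Submodule F (Fin n → F) := LinearMap.ker (T + w • 1) with hB
  have hAm : ∀ u ∈ A, T u = w • u := by
    intro u hu
    have h1 : T u - w • u = 0 := hu
    exact sub_eq_zero.1 h1
  have hBm : ∀ u ∈ B, T u = (-w) • u := by
    intro u hu
    have h1 : T u + w • u = 0 := hu
    rw [neg_smul]
    exact eq_neg_of_add_eq_zero_left h1
  have hT2a : ∀ u, T (T u) = (w ^ 2) • u := by
    intro u
    have h1 := congrArg (fun S : Module.End F (Fin n → F) => S u) hT2
    simpa [pow_two] using h1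
  have h2w : (2 * w) ≠ 0 := mul_ne_zero h2 hw0
  have hdisj : A ⊓ B = ⊥ := by
    rw [eq_bot_iff]
    rintro u ⟨h1, h3⟩
    have h4 := hAm u h1
    have h5 := hBm u h3
    rw [h4, neg_smul] at h5
    have h6 : (2 * w) • u = 0 := by
      rw [two_mul, add_smul, ← sub_neg_eq_add, sub_eq_zero]
      exact h5
    exact (smul_eq_zero.1 h6).resolve_left h2w
  have hsup : A ⊔ B = ⊤ := by
    rw [eq_top_iff]
    intro v _
    have h3 : (2 * w)⁻¹ • (T v + w • v) ∈ A := by
      show (T - w • 1) ((2 * w)⁻¹ • (T v + w • v)) = 0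
      rw [map_smul, LinearMap.sub_apply, map_add, map_smul, hT2a]
      simp only [LinearMap.smul_apply, Module.End.one_apply]
      rw [smul_add, smul_smul, smul_eq_zero]
      right
      rw [pow_two, sub_eq_zero]
      abel_nf
    have h4 : -(2 * w)⁻¹ • (T v - w • v) ∈ B := by
      show (T + w • 1) (-(2 * w)⁻¹ • (T v - w • v)) = 0
      rw [map_smul, LinearMap.add_apply, map_sub, map_smul, hT2a]
      simp only [LinearMap.smul_apply, Module.End.one_apply]
      rw [smul_eq_zero]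
      right
      rw [smul_sub, smul_smul, pow_two]
      abel
    have h5 : v = (2 * w)⁻¹ • (T v + w • v) + -(2 * w)⁻¹ • (T v - w • v) := by
      rw [neg_smul, smul_add, smul_sub, smul_smul]
      have h6 : (2 * w)⁻¹ * w = 2⁻¹ := by
        field_simp
      rw [h6]
      have h7 : (2⁻¹ : F) • v + (2⁻¹ : F) • v = v := by
        rw [← add_smul]
        have : (2⁻¹ : F) + 2⁻¹ = 1 := by
          field_simp
          norm_num
        rw [this, one_smul]
      calc v = (2⁻¹ : F) • v + (2⁻¹ : F) • v := h7.symm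
        _ = _ := by abel
    rw [h5]
    exact Submodule.add_mem_sup h3 h4
  have hc : IsCompl A B := ⟨disjoint_iff.2 hdisj, codisjoint_iff.2 hsup⟩
  have hdim := Submodule.finrank_add_eq_of_isCompl hc
  rw [finrank_fin_fun] at hdim
  -- isotropy
  have hisoA : ∀ u ∈ A, ∀ v ∈ A, hermForm n F q u v = 0 := by
    intro u hu v hv
    have h3 := hT u v
    rw [hAm u hu, hAm v hv, hermForm_smul_left, hermForm_smul_right, ← mul_assoc, ← pow_succ', hwq] at h3
    have h4 : 2 * hermForm n F q u v = 0 := by linear_combination -h3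
    exact (mul_eq_zero.1 h4).resolve_left h2
  have hisoB : ∀ u ∈ B, ∀ v ∈ B, hermForm n F q u v = 0 := by
    intro u hu v hv
    have h3 := hT u v
    have h5 : (-w) * (-w) ^ q = w ^ (q + 1) := by
      rw [← pow_succ', neg_pow w (q + 1), Cfsg.Agent.Lib.Classical.Herm.SU.neg_one_pow_succ hF, one_mul]
    rw [hBm u hu, hBm v hv, hermForm_smul_left, hermForm_smul_right, ← mul_assoc, h5, hwq] at h3
    have h4 : 2 * hermForm n F q u v = 0 := by linear_combination -h3
    exact (mul_eq_zero.1 h4).resolve_left h2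
  have hpair : ∀ {A B : Submodule F (Fin n → F)}, A ⊔ B = ⊤ → (∀ u ∈ A, ∀ v ∈ A, hermForm n F q u v = 0) →
      finrank F A ≤ finrank F B := by
    intro A B hs hi
    apply finrank_le_of_pair hF
    intro u hu hb
    apply hermForm_nondegenerate_left hF n
    intro x
    have hx : x ∈ A ⊔ B := by
      rw [hs]
      trivial
    obtain ⟨a, ha, b, hb', rfl⟩ := Submodule.mem_sup.1 hx
    rw [hermForm_add_right hF, hi u hu a ha, hb b hb', add_zero]
  have h3 := hpair hsup hisoA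
  have h4 := hpair (by rw [sup_comm]; exact hsup) hisoB
  have heq : finrank F A = finrank F B := le_antisymm h3 h4
  have hev : Even n := ⟨finrank F A, by omega⟩
  refine ⟨hev, ?_⟩
  have hAd : finrank F A = n / 2 := by omega
  have hBd : finrank F B = n / 2 := by omega
  rw [det_two_eigen hc hAm hBm, hAd, hBd, ← mul_pow]
  congr 1
  ring

end Two

end Cfsg.Agent.Lib.Classical.ElusiveU.Main
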