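import Mathlib
import Cfsg.Agent.Lib.Classical.ElusiveU.Main1

/-!
# Elements of prime order of `PSU_n(q)` and nondegenerate subspaces: the remaining cases
-/

set_option autoImplicit false
set_option linter.unusedSectionVars false
set_option linter.unusedSimpArgs false
set_option linter.unusedVariables false
set_option linter.style.haveILetI false

namespace Cfsg.Agent.Lib.Classical.ElusiveU.Main

open Module Polynomial
open Cfsg Cfsg.Agent.Lib.Classical.Herm.Basic Cfsg.Agent.Lib.Classical.Herm.GU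
  Cfsg.Agent.Lib.Classical.Elusive.Inv Cfsg.Agent.Lib.Classical.Herm.Wall
  Cfsg.Agent.Lib.Classical.Elusive.JordanType
  Cfsg.Agent.Lib.Classical.ElusiveU.Form Cfsg.Agent.Lib.Classical.ElusiveU.Atoms
  Cfsg.Agent.Lib.Classical.ElusiveU.Models
  Cfsg.Agent.Lib.Classical.Elusive.PslJordan
  Cfsg.Agent.Lib.Classical.Elusive.PslModel Cfsg.Agent.Lib.Classical.Elusive.PslNum
  Cfsg.Agent.Lib.Classical.Elusive.PslMain

variable {F : Type*} [Field F] [Fintype F] {q n : ℕ}

section Two

variable {p : ℕ} [Fact p.Prime] [CharP F p]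

/-- The case `r = 2 ≠ p`. -/
theorem main_two (hF : Fintype.card F = q ^ 2) (hp2 : p ≠ 2) (hn : n ≠ 0) {m : ℕ} (hmn : m ≤ n) :
    LHS F q n m 2 ↔ (Odd n ∨ Even m ∨ (padicValNat 2 n ≤ padicValNat 2 (q + 1) ∧ q % 4 = 3)) := by
  classical
  have hq := odd_q (F := F) (p := p) hF hp2
  have hq2 := two_le_q hF
  have h2c : ((2 : ℕ) : F) ≠ 0 := cast_ne_zero_of_ne Nat.prime_two (Ne.symm hp2)
  have h20 : (2 : F) ≠ 0 := by exact_mod_cast h2c
  have hnegone : (-1 : F) ≠ 1 := by
    intro h
    apply h20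
    linear_combination -h
  constructor
  · intro H
    by_contra hcon
    push Not at hcon
    obtain ⟨hn1, hm1, hn2⟩ := hcon
    rw [Nat.not_odd_iff_even] at hn1
    rw [Nat.not_even_iff_odd] at hm1
    obtain ⟨s, u, hu, hqe⟩ := Nat.exists_eq_pow_mul_and_not_dvd (n := q + 1) (by omega) 2 (by norm_num)
    have hu0 : u ≠ 0 := by
      rintro rfl
      exact hu (dvd_zero _)
    have huodd : Odd u := by
      rw [← Nat.not_even_iff_odd, even_iff_two_dvd]
      exact hu
    haveI : Fact (Nat.Prime 2) := ⟨Nat.prime_two⟩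
    have hval : padicValNat 2 (q + 1) = s := by
      rw [hqe, padicValNat.mul (pow_ne_zero _ two_ne_zero) hu0, padicValNat.prime_pow,
        padicValNat.eq_zero_of_not_dvd hu, add_zero]
    have hs1 : 1 ≤ s := by
      by_contra h0
      have h3 : s = 0 := by omega
      rw [h3, pow_zero, one_mul] at hqe
      have h4 : Even (q + 1) := hq.add_one
      rw [hqe] at h4
      exact hu (even_iff_two_dvd.1 h4)
    have hqs : q ^ 2 - 1 = 2 ^ (s + 1) * (u * ((q - 1) / 2)) := by
      rw [q_sq_sub_one (by omega), hqe]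
      obtain ⟨t, ht⟩ := hq
      have h5 : (q - 1) = 2 * ((q - 1) / 2) := by omega
      conv_lhs => rw [h5]
      rw [pow_succ]
      ring
    obtain ⟨ρ, hρ0, hρo⟩ := exists_of_order hF (d := 2 ^ (s + 1)) ⟨_, hqs⟩ (by positivity)
    have hρ2 : ρ ^ (2 ^ (s + 1)) = 1 := by
      rw [← hρo, pow_orderOf_eq_one]
    have hρ1 : ρ ^ (2 ^ s) = -1 := by
      have h3 : (ρ ^ (2 ^ s) - 1) * (ρ ^ (2 ^ s) + 1) = 0 := by
        have h4 : (ρ ^ (2 ^ s)) ^ 2 = 1 := by
          rw [← pow_mul, ← pow_succ, hρ2]
        linear_combination h4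
      rcases mul_eq_zero.1 h3 with h4 | h4
      · exfalso
        have h5 : orderOf ρ ∣ 2 ^ s := orderOf_dvd_of_pow_eq_one (sub_eq_zero.1 h4)
        rw [hρo, Nat.pow_dvd_pow_iff_le_right (by norm_num)] at h5
        omega
      · linear_combination h4
    have hρq : ρ ^ (q + 1) = -1 := by
      rw [hqe, pow_mul, hρ1, huodd.neg_one_pow]
    obtain ⟨t, ht⟩ := hn1
    have htn : n = 2 * t := by omega
    have ht0 : 0 < t := by omega
    have hz0 : ρ ^ 2 ≠ 0 := pow_ne_zero _ hρ0
    have hzq : (ρ ^ 2) ^ (q + 1) = 1 := by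
      rw [← pow_mul, mul_comm, pow_mul, hρq]
      ring
    obtain ⟨M, hP, hM2, hMd⟩ := exists_model_pow (n := n) (p := p) hF (r := 2) (t := t) two_pos ht0 htn hz0 hzq
    have hdet : M.det = 1 := by
      rw [hMd, htn, pow_mul]
      simp only [even_two, Even.neg_pow, one_pow, one_mul]
      by_cases hq3 : q % 4 = 3
      · have h3 : ¬ padicValNat 2 n ≤ s := by
          rw [← hval]
          exact fun h => hn2 h hq3
        have h4 : 2 ^ (s + 1) ∣ n := (padicValNat_dvd_iff_le hn).2 (by omega)
        obtain ⟨n₁, hn₁⟩ := h4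
        have ht1 : t = 2 ^ s * n₁ := by
          have h5 : 2 * t = 2 * (2 ^ s * n₁) := by
            rw [← htn, hn₁, pow_succ]
            ring
          exact Nat.eq_of_mul_eq_mul_left two_pos h5
        have htev : Even t := by
          rw [ht1]
          exact (even_iff_two_dvd.2 (dvd_pow_self 2 (by omega))).mul_right _
        rw [htev.neg_pow, ← pow_mul, ← htn, hn₁, pow_mul, hρ2, one_pow]
      · have hq1 : q % 4 = 1 := by
          obtain ⟨k, hk⟩ := hq
          omega
        have hs : s = 1 := by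
          by_contra h3
          have h4 : 2 ≤ s := by omega
          have h5 : 4 ∣ q + 1 := by
            rw [hqe]
            exact Dvd.dvd.mul_right (pow_dvd_pow 2 h4) _
          omega
        subst hs
        have h3 : ρ ^ 2 = -1 := by simpa using hρ1
        rw [h3, neg_neg, one_pow]
    have hT := iso_of_preserves hP
    have hTz : (Matrix.toLin' M) ^ 2 = (ρ ^ 2) • 1 := by
      rw [← Matrix.toLin'_pow, hM2, map_smul, Matrix.toLin'_one]
      rfl
    haveI : Nonempty (Fin n) := Fin.pos_iff_nonempty.1 (Nat.pos_of_ne_zero hn)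
    have hns : ∀ c : F, M ≠ c • 1 := by
      intro c hc
      have h1 : c ^ (q + 1) = 1 := by
        apply norm_of_iso hF hn hT (r := 1)
        rw [pow_one, hc, map_smul, Matrix.toLin'_one]
        rfl
      rw [hc, _root_.smul_pow, one_pow] at hM2
      have h3 : (c ^ 2 - ρ ^ 2) • (1 : Matrix (Fin n) (Fin n) F) = 0 := by
        rw [sub_smul, hM2, sub_self]
      have h4 := (smul_eq_zero.1 h3).resolve_right one_ne_zero
      have h5 : (c - ρ) * (c + ρ) = 0 := by linear_combination h4
      have hev : Even (q + 1) := hq.add_one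
      rcases mul_eq_zero.1 h5 with h6 | h6
      · rw [sub_eq_zero.1 h6, hρq] at h1
        exact hnegone h1
      · rw [eq_neg_of_add_eq_zero_left h6, hev.neg_pow, hρq] at h1
        exact hnegone h1
    obtain ⟨W, h1, h2, h3⟩ := lhs_elim H hP hdet hM2 hns
    obtain ⟨h4, -⟩ := real_replicate hF hT two_pos (atoms_B hF hq h2c hT hρ0 hTz hρq) h3 h2
    rw [h1] at h4
    exact (Nat.not_even_iff_odd.2 hm1) (even_iff_two_dvd.2 h4)
  · intro h
    apply lhs_intro hF hn
    intro T hT z hTz hz0 hzq hdet _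
    obtain ⟨w, rfl⟩ := exists_sqrt hF hq hz0 hzq
    have hw0 : w ≠ 0 := by
      rintro rfl
      exact hz0 (by simp)
    have ha : (w ^ (q + 1) - 1) * (w ^ (q + 1) + 1) = 0 := by
      have h4 : (w ^ (q + 1)) ^ 2 = 1 := by
        rw [← pow_mul, mul_comm, pow_mul, hzq]
      linear_combination h4
    have htop := isInv_top T
    have hrank : finrank F (⊤ : Submodule F (Fin n → F)) = n := by
      rw [finrank_top, finrank_fin_fun]
    rcases mul_eq_zero.1 ha with h1 | h1
    · have h1' := sub_eq_zero.1 h1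
      obtain ⟨-, h3⟩ := real_replicate hF hT one_pos (atoms_A hF hq h2c hT hw0 hTz h1') htop (top_nd hF)
      obtain ⟨W, -, h4, h5, h6⟩ := h3 m (one_dvd _) (by rw [hrank]; exact hmn)
      exact ⟨W, h6, h5, h4⟩
    · have h1' : w ^ (q + 1) = -1 := by linear_combination h1
      obtain ⟨h2n, h3⟩ := real_replicate hF hT two_pos (atoms_B hF hq h2c hT hw0 hTz h1') htop (top_nd hF)
      rw [hrank] at h2n
      have hgoal : Even m → ∃ W : Submodule F (Fin n → F), finrank F W = m ∧ Nd q W ∧ IsInv T W := by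
        intro hm
        obtain ⟨W, -, h4, h5, h6⟩ := h3 m (even_iff_two_dvd.1 hm) (by rw [hrank]; exact hmn)
        exact ⟨W, h6, h5, h4⟩
      rcases h with h4 | h4 | ⟨h4, h5⟩
      · exact absurd (even_iff_two_dvd.2 h2n) (Nat.not_even_iff_odd.2 h4)
      · exact hgoal h4
      · exfalso
        obtain ⟨-, hd⟩ := det_typeB hF h20 hT hw0 hTz h1'
        rw [hdet] at hd
        obtain ⟨t, rfl⟩ := h2n
        have ht0 : t ≠ 0 := by
          rintro rfl
          exact hn rfl
        rw [Nat.mul_div_cancel_left _ two_pos] at hd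
        set y₀ := -w ^ 2 with hy₀
        haveI : Fact (Nat.Prime 2) := ⟨Nat.prime_two⟩
        have h6 : padicValNat 2 (2 * t) = 1 + padicValNat 2 t := by
          rw [padicValNat.mul two_ne_zero ht0, padicValNat_self]
        have hev : Even (q + 1) := hq.add_one
        have hy₀q : y₀ ^ (q + 1) = 1 := by
          rw [hy₀, hev.neg_pow, hzq]
        have h7 := pow_div_eq_one_of_val Nat.prime_two (by omega) ht0 hy₀q hd.symm (by omega)
        obtain ⟨k, hk⟩ : ∃ k, q + 1 = 4 * k := ⟨(q + 1) / 4, by omega⟩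
        have h8 : (q + 1) / 2 = 2 * k := by omega
        rw [h8, pow_mul, hy₀] at h7
        have h9 : (-w ^ 2) ^ 2 = w ^ 4 := by ring
        rw [h9, ← pow_mul, ← hk, h1'] at h7
        exact hnegone h7

end Two

section D

variable {p : ℕ} [Fact p.Prime] [CharP F p]

/-- The case where `r` is odd and divides `q + 1`. -/
theorem main_D (hF : Fintype.card F = q ^ 2) {r : ℕ} [Fact r.Prime] (hrp : r ≠ p) (hr2 : r ≠ 2) (hrq : r ∣ q + 1)
    (hn : n ≠ 0) {m : ℕ} (hmn : m ≤ n) :
    LHS F q n m r ↔ (r ∣ m ∨ padicValNat r n ≤ padicValNat r (q + 1)) := by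
  classical
  have hr : r.Prime := Fact.out
  have hrpos := hr.pos
  have hq2 := two_le_q hF
  have hr0 : (r : F) ≠ 0 := cast_ne_zero_of_ne hr hrp
  have hrq1 : ¬ r ∣ q - 1 := by
    intro h
    have h1 : r ∣ (q + 1) - (q - 1) := Nat.dvd_sub hrq h
    rw [show (q + 1) - (q - 1) = 2 by omega] at h1
    exact hr2 ((Nat.prime_dvd_prime_iff_eq hr Nat.prime_two).1 h1)
  have hQ1 : orderOf (((q ^ 2 : ℕ)) : ZMod r) = 1 := by
    rw [order_one_iff (Nat.one_le_pow _ _ (by omega)), q_sq_sub_one (by omega)]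
    exact hrq.mul_right _
  have hroddp : Even (r + 1) := (hr.odd_of_ne_two hr2).add_one
  constructor
  · intro H
    by_contra hcon
    push Not at hcon
    obtain ⟨hm1, hval⟩ := hcon
    obtain ⟨s, u, hu, hqe⟩ := Nat.exists_eq_pow_mul_and_not_dvd (n := q + 1) (by omega) r hr.ne_one
    have hu0 : u ≠ 0 := by
      rintro rfl
      exact hu (dvd_zero _)
    have hvalq : padicValNat r (q + 1) = s := by
      rw [hqe, padicValNat.mul (pow_ne_zero _ hr.ne_zero) hu0, padicValNat.prime_pow,
        padicValNat.eq_zero_of_not_dvd hu, add_zero]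
    have hs1 : 1 ≤ s := by
      by_contra h0
      have h3 : s = 0 := by omega
      rw [h3, pow_zero, one_mul] at hqe
      exact hu (hqe ▸ hrq)
    have hqs : q ^ 2 - 1 = r ^ s * (u * (q - 1)) := by
      rw [q_sq_sub_one (by omega), hqe]
      ring
    obtain ⟨z, hz0, hzo⟩ := exists_of_order hF (d := r ^ s) ⟨_, hqs⟩ (by positivity)
    have hzq : z ^ (q + 1) = 1 := by
      rw [← orderOf_dvd_iff_pow_eq_one, hzo, hqe]
      exact dvd_mul_right _ _
    have hnonroot : ∀ b : F, b ^ r ≠ z := by
      rintro b rfl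
      have hb0 : b ≠ 0 := by
        rintro rfl
        exact hz0 (zero_pow hr.ne_zero)
      have h1 : b ^ (q ^ 2 - 1) = 1 := by
        have := FiniteField.pow_card_sub_one_eq_one b hb0
        rwa [hF] at this
      obtain ⟨s', rfl⟩ : ∃ s', s = s' + 1 := ⟨s - 1, by omega⟩
      have h2 : (b ^ r) ^ (r ^ s' * (u * (q - 1))) = 1 := by
        rw [← pow_mul, ← h1, hqs, pow_succ]
        congr 1
        ring
      have h3 := orderOf_dvd_of_pow_eq_one h2
      rw [hzo, pow_succ] at h3
      have h4 : r ∣ u * (q - 1) := Nat.dvd_of_mul_dvd_mul_left (pow_pos hrpos _) h3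
      rcases (hr.dvd_mul.1 h4) with h5 | h5
      · exact hu h5
      · exact hrq1 h5
    have hirr : Irreducible (X ^ r - C z : F[X]) := X_pow_sub_C_irreducible_of_prime hr hnonroot
    have h4 : r ^ (s + 1) ∣ n := (padicValNat_dvd_iff_le hn).2 (by omega)
    obtain ⟨n₁, hn₁⟩ := h4
    have hn₁0 : n₁ ≠ 0 := by
      rintro rfl
      exact hn (by simpa using hn₁)
    set t := r ^ s * n₁ with ht
    have htn : n = r * t := by
      rw [hn₁, ht, pow_succ]
      ring
    have ht0 : 0 < t := by positivity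
    obtain ⟨M, hP, hMr, hMd⟩ := exists_model_pow (n := n) (p := p) hF (r := r) (t := t) hrpos ht0 htn hz0 hzq
    have hdet : M.det = 1 := by
      rw [hMd, neg_pow z t, ← mul_assoc, ← pow_add]
      have h5 : Even (n + t) := by
        rw [htn, show r * t + t = (r + 1) * t by ring]
        exact hroddp.mul_right t
      rw [h5.neg_one_pow, one_mul, ht, pow_mul, ← hzo, pow_orderOf_eq_one, one_pow]
    haveI : Nonempty (Fin n) := Fin.pos_iff_nonempty.1 (Nat.pos_of_ne_zero hn)
    have hns : ∀ c : F, M ≠ c • 1 := by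
      intro c hc
      rw [hc, _root_.smul_pow, one_pow] at hMr
      have h3 : (c ^ r - z) • (1 : Matrix (Fin n) (Fin n) F) = 0 := by
        rw [sub_smul, hMr, sub_self]
      have h5 := (smul_eq_zero.1 h3).resolve_right one_ne_zero
      exact hnonroot c (sub_eq_zero.1 h5)
    obtain ⟨W, h1, h2, h3⟩ := lhs_elim H hP hdet hMr hns
    have hTz : (Matrix.toLin' M) ^ r = z • 1 := by
      rw [← Matrix.toLin'_pow, hMr, map_smul, Matrix.toLin'_one]
      rfl
    have h5 := dvd_of_irr hrpos hTz (X_pow_sub_C_ne_zero hrpos z) (fac_irr hirr) h3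
    rw [h1] at h5
    exact hm1 h5
  · intro h
    apply lhs_intro hF hn
    intro T hT z hTz hz0 hzq hdet _
    have hrank : finrank F (⊤ : Submodule F (Fin n → F)) = n := by
      rw [finrank_top, finrank_fin_fun]
    by_cases hroot : ∃ w : F, w ^ r = z
    · obtain ⟨w, rfl⟩ := hroot
      have hw0 : w ≠ 0 := by
        rintro rfl
        exact hz0 (zero_pow hr.ne_zero)
      have hwq : w ^ (q + 1) = 1 := by
        set a := w ^ (q + 1) with ha
        have h1 : a ^ r = 1 := by
          rw [ha, ← pow_mul, mul_comm, pow_mul, hzq]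
        have h2 : a ^ (q - 1) = 1 := by
          rw [ha, ← pow_mul, ← q_sq_sub_one (by omega)]
          have := FiniteField.pow_card_sub_one_eq_one w hw0
          rwa [hF] at this
        have h3 : orderOf a ∣ r.gcd (q - 1) :=
          Nat.dvd_gcd (orderOf_dvd_of_pow_eq_one h1) (orderOf_dvd_of_pow_eq_one h2)
        rw [(hr.coprime_iff_not_dvd).2 hrq1] at h3
        exact orderOf_eq_one_iff.1 (Nat.dvd_one.1 h3)
      have hainv : (w⁻¹) ^ (q + 1) = 1 := by
        rw [inv_pow, hwq, inv_one]
      have hy : Iso q (w⁻¹ • T) := iso_smul hainv hT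
      have hyr : (w⁻¹ • T) ^ r = (1 : F) • 1 := by
        rw [one_smul]
        exact pow_smul_inv hw0 rfl hTz
      have hatoms : ∀ S, IsInv (w⁻¹ • T) S → Nd q S → S ≠ ⊥ →
          ∃ W ≤ S, IsInv (w⁻¹ • T) W ∧ Nd q W ∧ W ≠ ⊥ ∧ finrank F W = 1 := by
        intro S hS hSn hS0
        obtain ⟨g, hm, hi, hg, W, h1, h2, h3, h4, h5⟩ := atoms_pow hF hy hrpos hr0 one_ne_zero (one_pow _) hyr hS hSn hS0
        rw [C_1] at hg
        have hdeg : g.natDegree = 1 := fac_X hF hr hrp hQ1 g hi hg
        have hgX : g = X - C (-g.coeff 0) := by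
          have := Polynomial.Monic.eq_X_add_C hm hdeg
          rw [C_neg, sub_neg_eq_add]
          exact this
        set a := -g.coeff 0 with ha
        have hroota : a ^ r = 1 := by
          have h6 : (X ^ r - 1 : F[X]).eval a = 0 := by
            apply eval_eq_zero_of_dvd_of_eval_eq_zero hg
            rw [hgX]
            simp
          simp only [eval_sub, eval_pow, eval_X, eval_one] at h6
          exact sub_eq_zero.1 h6
        have ha0 : a ≠ 0 := by
          intro h6
          rw [h6, zero_pow hr.ne_zero] at hroota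
          exact zero_ne_one hroota
        have haq : a ^ (q + 1) = 1 := by
          obtain ⟨k, hk⟩ := hrq
          rw [hk, pow_mul, hroota, one_pow]
        have hgd : dualP hF g = g := by
          rw [hgX, dualP_X_sub_C hF ha0, inv_pow_q_eq haq]
        refine ⟨W, h1, h2, h3, h4, ?_⟩
        rcases h5 with ⟨-, h6, -⟩ | ⟨h6, -⟩
        · rw [h6, hdeg]
        · exact absurd hgd h6
      obtain ⟨-, h3⟩ := real_replicate hF hy one_pos hatoms (isInv_top _) (top_nd hF)
      obtain ⟨W, -, h4, h5, h6⟩ := h3 m (one_dvd _) (by rw [hrank]; exact hmn)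
      exact ⟨W, h6, h5, (isInv_smul_iff (inv_ne_zero hw0)).1 h4⟩
    · have hnonroot : ∀ b : F, b ^ r ≠ z := fun b hb => hroot ⟨b, hb⟩
      have hirr : Irreducible (X ^ r - C z : F[X]) := X_pow_sub_C_irreducible_of_prime hr hnonroot
      obtain ⟨hrn, hd⟩ := det_of_irr hrpos hirr T hTz hz0
      rw [hdet, hroddp.neg_one_pow, one_mul] at hd
      have hGm : (X ^ r - C z : F[X]).Monic := monic_X_pow_sub_C z hr.ne_zero
      have hatoms : ∀ S, IsInv T S → Nd q S → S ≠ ⊥ →
          ∃ W ≤ S, IsInv T W ∧ Nd q W ∧ W ≠ ⊥ ∧ finrank F W = r := by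
        intro S hS hSn hS0
        obtain ⟨g, hm, hi, hg, W, h1, h2, h3, h4, h5⟩ := atoms_pow hF hT hrpos hr0 hz0 hzq hTz hS hSn hS0
        have hgG : g = X ^ r - C z := eq_of_monic_of_associated hm hGm (hi.associated_of_dvd hirr hg)
        have hgd : dualP hF g = g := by
          rw [hgG, dualP_X_pow_sub_C hF hrpos hz0, inv_pow_q_eq hzq]
        refine ⟨W, h1, h2, h3, h4, ?_⟩
        rcases h5 with ⟨-, h6, -⟩ | ⟨h6, -⟩
        · rw [h6, hgG, natDegree_X_pow_sub_C]
        · exact absurd hgd h6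
      obtain ⟨-, h3⟩ := real_replicate hF hT hrpos hatoms (isInv_top _) (top_nd hF)
      rcases h with h4 | h4
      · obtain ⟨W, -, h5, h6, h7⟩ := h3 m h4 (by rw [hrank]; exact hmn)
        exact ⟨W, h7, h6, h5⟩
      · exfalso
        obtain ⟨t, ht⟩ := hrn
        have ht0 : t ≠ 0 := by
          rintro rfl
          exact hn (by simpa using ht)
        rw [ht, Nat.mul_div_cancel_left _ hrpos] at hd
        have h6 : padicValNat r n = 1 + padicValNat r t := by
          rw [ht, padicValNat.mul hr.ne_zero ht0, padicValNat_self]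
        have h7 := pow_div_eq_one_of_val hr (by omega) ht0 hzq hd.symm (by omega)
        obtain ⟨k, hk⟩ := hrq
        have h8 : Fintype.card F - 1 = r * (k * (q - 1)) := by
          rw [hF, q_sq_sub_one (by omega), hk]
          ring
        apply hroot
        apply exists_root_of_pow hr (by rw [h8]; exact dvd_mul_right _ _) hz0
        rw [h8, Nat.mul_div_cancel_left _ hrpos, pow_mul]
        rw [hk, Nat.mul_div_cancel_left _ hrpos] at h7
        rw [h7, one_pow]

end D

end Cfsg.Agent.Lib.Classical.ElusiveU.Main
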