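import Mathlib
import Cfsg.Agent.Lib.Classical.ElusiveU.Main2

/-!
# Elements of prime order of `PSU_n(q)` and nondegenerate subspaces: `r` not dividing `q + 1`
-/

set_option autoImplicit false
set_option linter.unusedSectionVars false
set_option linter.unusedSimpArgs false
set_option linter.unusedVariables false
set_option linter.style.haveILetI false

namespace Cfsg.Agent.Lib.Classical.ElusiveU.Main

open Module Polynomial
open Cfsg Cfsg.Agent.Lib.Classical.Herm.Basic Cfsg.Agent.Lib.Classical.Herm.GU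
  Cfsg.Agent.Lib.Classical.Elusive.Inv Cfsg.Agent.Lib.Classical.Herm.Wall
  Cfsg.Agent.Lib.Classical.Elusive.JordanType
  Cfsg.Agent.Lib.Classical.ElusiveU.Form Cfsg.Agent.Lib.Classical.ElusiveU.Atoms
  Cfsg.Agent.Lib.Classical.ElusiveU.Models
  Cfsg.Agent.Lib.Classical.Elusive.PslJordan
  Cfsg.Agent.Lib.Classical.Elusive.PslModel Cfsg.Agent.Lib.Classical.Elusive.PslNum
  Cfsg.Agent.Lib.Classical.Elusive.PslMain
  Cfsg.Agent.Lib.Classical.Herm.CycGU Cfsg.Agent.Lib.Classical.Herm.CycTuples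

variable {F : Type*} [Field F] [Fintype F] {q n : ℕ}

section Comb

/-- The combinatorics of blocks of sizes `1` and `c`. -/
theorem comb_E {μ : Multiset ℕ} {n m c : ℕ} (hc2 : 2 ≤ c) (hμ : ∀ a ∈ μ, a = 1 ∨ a = c) (hs : μ.sum = n)
    (hmn : m ≤ n) (hmod : m % c ≤ n % c) : ∃ ν : Multiset ℕ, ν ≤ μ ∧ ν.sum = m := by
  classical
  obtain ⟨a₀, ha₀⟩ : ∃ a₀, a₀ = Multiset.count 1 μ := ⟨_, rfl⟩
  obtain ⟨a, ha⟩ : ∃ a, a = Multiset.count c μ := ⟨_, rfl⟩
  have hμeq : μ = Multiset.replicate a₀ 1 + Multiset.replicate a c := by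
    ext e
    rw [Multiset.count_add, Multiset.count_replicate, Multiset.count_replicate]
    have hc1 : (1 : ℕ) ≠ c := by omega
    by_cases h1 : e = 1
    · rw [h1, if_pos rfl, if_neg (Ne.symm hc1), add_zero, ha₀]
    · by_cases h2 : e = c
      · rw [h2, if_neg hc1, if_pos rfl, zero_add, ha]
      · rw [if_neg (Ne.symm h1), if_neg (Ne.symm h2)]
        apply Multiset.count_eq_zero_of_notMem
        intro he
        rcases hμ e he with h3 | h3
        · exact h1 h3
        · exact h2 h3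
  have hsum : a₀ + a * c = n := by
    rw [← hs]
    conv_rhs => rw [hμeq]
    simp
  have hmod' : a₀ % c = n % c := by
    rw [← hsum, Nat.add_mul_mod_self_right]
  have hle : a₀ % c ≤ a₀ := Nat.mod_le _ _
  have hdiv := Nat.mod_add_div' m c
  by_cases h : m / c ≤ a
  · refine ⟨Multiset.replicate (m % c) 1 + Multiset.replicate (m / c) c, ?_, ?_⟩
    · conv_rhs => rw [hμeq]
      exact add_le_add ((Multiset.replicate_le_replicate _).2 (by omega)) ((Multiset.replicate_le_replicate _).2 h)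
    · simp
      omega
  · have h1 : a * c ≤ m / c * c := Nat.mul_le_mul_right c (by omega)
    refine ⟨Multiset.replicate (m - a * c) 1 + Multiset.replicate a c, ?_, ?_⟩
    · conv_rhs => rw [hμeq]
      exact add_le_add ((Multiset.replicate_le_replicate _).2 (by omega)) le_rfl
    · simp
      omega

/-- Dimensions of nondegenerate invariant subspaces. -/
theorem dim_Q (hF : Fintype.card F = q ^ 2) {y : Module.End F (Fin n → F)} (hy : Iso q y) (c : ℕ)
    (hA : ∀ S, IsInv y S → Nd q S → S ≠ ⊥ → ∃ W ≤ S, IsInv y W ∧ Nd q W ∧ W ≠ ⊥ ∧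
      ((finrank F W = 1 ∧ ∀ w ∈ W, y w = w) ∨ finrank F W = c))
    {S : Submodule F (Fin n → F)} (hS : IsInv y S) (hSn : Nd q S) :
    ∃ a e, finrank F S = a + c * e ∧ a ≤ finrank F ↥(S ⊓ Module.End.eigenspace y 1) := by
  revert S
  apply decomp_ind hF hy (fun W => (finrank F W = 1 ∧ ∀ w ∈ W, y w = w) ∨ finrank F W = c) hA
  · refine ⟨0, 0, by simp, Nat.zero_le _⟩
  · rintro W S' hA' hWi hWn hW0 hS'i hS'n hle ⟨a, e, h1, h2⟩
    have hd := finrank_sup_perp hWn hle
    rcases hA' with ⟨h3, h4⟩ | h3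
    · refine ⟨a + 1, e, ?_, ?_⟩
      · rw [hd, h3, h1]
        ring
      · set E := Module.End.eigenspace y 1 with hE
        have h5 : W ≤ E := by
          intro w hw
          rw [hE, Module.End.mem_eigenspace_iff, one_smul]
          exact h4 w hw
        have h6 : (S' ⊓ E) ≤ perp q W := inf_le_left.trans hle
        have h7 := finrank_sup_perp hWn h6
        have h8 : W ⊔ (S' ⊓ E) ≤ (W ⊔ S') ⊓ E :=
          sup_le (le_inf le_sup_left h5) (le_inf (inf_le_left.trans le_sup_right) inf_le_right)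
        have h9 := Submodule.finrank_mono h8
        omega
    · refine ⟨a, e + 1, ?_, ?_⟩
      · rw [hd, h3, h1]
        ring
      · refine h2.trans (Submodule.finrank_mono ?_)
        exact inf_le_inf_right _ le_sup_right

end Comb

section E

variable {p : ℕ} [Fact p.Prime] [CharP F p]

theorem q_ne_zero_zmod (hF : Fintype.card F = q ^ 2) {r : ℕ} [Fact r.Prime] (hrp : r ≠ p) : (q : ZMod r) ≠ 0 := by
  have hr : r.Prime := Fact.out
  rw [Ne, ZMod.natCast_eq_zero_iff]
  obtain ⟨p', f, hp', hc', hqp⟩ := exists_char_pow hF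
  have hpp : p' = p := CharP.eq F hc' ‹CharP F p›
  subst hpp
  intro h
  rw [hqp] at h
  exact hrp ((Nat.prime_dvd_prime_iff_eq hr hp').1 (hr.dvd_of_dvd_pow h))

/-- The order of `q ^ 2`. -/
theorem orderOf_sq {r : ℕ} {x : ZMod r} : orderOf (x ^ 2) = if Even (orderOf x) then orderOf x / 2 else orderOf x := by
  rw [orderOf_pow' x two_ne_zero]
  split_ifs with h
  · rw [Nat.gcd_eq_right (even_iff_two_dvd.1 h)]
  · have : (orderOf x).gcd 2 = 1 := by
      rw [Nat.Coprime.gcd_eq_one]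
      exact Nat.coprime_two_right.2 (Nat.not_even_iff_odd.1 h)
    rw [this, Nat.div_one]

/-- The blocks when `y ^ r = 1`. -/
theorem atoms_E (hF : Fintype.card F = q ^ 2) {r : ℕ} [Fact r.Prime] (hrp : r ≠ p) (hr2 : r ≠ 2)
    {i c : ℕ} (hi : i = orderOf (q : ZMod r))
    (hc : c = if i % 4 = 0 then i else if i % 4 = 2 then i / 2 else 2 * i)
    {y : Module.End F (Fin n → F)} (hy : Iso q y) (hyr : y ^ r = 1)
    (S : Submodule F (Fin n → F)) (hS : IsInv y S) (hSn : Nd q S) (hS0 : S ≠ ⊥) :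
    ∃ W ≤ S, IsInv y W ∧ Nd q W ∧ W ≠ ⊥ ∧ ((finrank F W = 1 ∧ ∀ w ∈ W, y w = w) ∨ finrank F W = c) := by
  classical
  have hr : r.Prime := Fact.out
  have hrpos := hr.pos
  have hr0 : (r : F) ≠ 0 := cast_ne_zero_of_ne hr hrp
  have hqu : IsUnit (q : ZMod r) := (q_ne_zero_zmod hF hrp).isUnit
  obtain ⟨g, hm, hig, hg, W, h1, h2, h3, h4, h5⟩ := atoms_pow hF hy hrpos hr0 one_ne_zero (one_pow _)
    (by rw [one_smul]; exact hyr) hS hSn hS0
  rw [C_1] at hg
  refine ⟨W, h1, h2, h3, h4, ?_⟩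
  obtain ⟨D, hD, hDr, -, -, -⟩ := exists_cyc_data (p := p) hF hr hrp
  rcases ((hDr g hm hig 1 one_pos).1 (by rwa [pow_one])).2 with rfl | hgD
  · left
    rw [dualP_X_sub_one hF] at h5
    rcases h5 with ⟨-, h6, h7⟩ | ⟨h6, -⟩
    · refine ⟨?_, ?_⟩
      · rw [h6, show (X - 1 : F[X]) = X - C 1 by rw [C_1], natDegree_X_sub_C]
      · intro w hw
        have h8 := h7 w hw
        rw [map_sub, aeval_X, map_one] at h8
        exact sub_eq_zero.1 h8
    · exact absurd rfl h6
  · obtain ⟨-, -, hdeg, hne⟩ := hD g hgD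
    right
    have h0 := coeff_zero_ne_of_dvd hrpos hg
    have hiff := dualP_eq_self_iff hF (q := q) hr2 hqu hm hig hdeg hg hne h0
    rw [← hi] at hiff
    have hcast : (((q ^ 2 : ℕ)) : ZMod r) = (q : ZMod r) ^ 2 := by push_cast; rfl
    rw [hcast, orderOf_sq, ← hi] at hdeg
    rcases h5 with ⟨h6, h7, -⟩ | ⟨h6, h7⟩
    · have h8 := hiff.1 h6
      have h9 : ¬ i % 4 = 0 := by omega
      have hev : Even i := by
        rw [even_iff_two_dvd]
        omega
      rw [h7, hdeg, if_pos hev, hc, if_neg h9, if_pos h8]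
    · have h8 : i % 4 ≠ 2 := fun h9 => h6 (hiff.2 h9)
      by_cases h9 : i % 4 = 0
      · have hev : Even i := by
          rw [even_iff_two_dvd]
          omega
        rw [h7, hdeg, if_pos hev, hc, if_pos h9]
        omega
      · have hodd : ¬ Even i := by
          rw [Nat.even_iff]
          omega
        rw [h7, hdeg, if_neg hodd, hc, if_neg h9, if_neg h8]

/-- The polynomial for the worst element. -/
theorem exists_poly_E (hF : Fintype.card F = q ^ 2) {r : ℕ} [Fact r.Prime] (hrp : r ≠ p) (hr2 : r ≠ 2)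
    {i c : ℕ} (hi : i = orderOf (q : ZMod r))
    (hc : c = if i % 4 = 0 then i else if i % 4 = 2 then i / 2 else 2 * i) :
    ∃ h : F[X], h.Monic ∧ h.natDegree = c ∧ dualP hF h = h ∧ h ∣ (X ^ r - 1 : F[X]) ∧ h.eval 1 ≠ 0 := by
  classical
  have hr : r.Prime := Fact.out
  have hrpos := hr.pos
  have hqu : IsUnit (q : ZMod r) := (q_ne_zero_zmod hF hrp).isUnit
  obtain ⟨D, hD, hDr, hcard, -, -⟩ := exists_cyc_data (p := p) hF hr hrp
  have hne : D.Nonempty := by
    rw [Finset.nonempty_iff_ne_empty]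
    rintro rfl
    simp at hcard
    have := hr.two_le
    omega
  obtain ⟨g, hgD⟩ := hne
  obtain ⟨hm, hig, hdeg, hne'⟩ := hD g hgD
  have hg : g ∣ (X ^ r - 1 : F[X]) := by
    have := (hDr g hm hig 1 one_pos).2 ⟨rfl, Or.inr hgD⟩
    rwa [pow_one] at this
  have h0 := coeff_zero_ne_of_dvd hrpos hg
  have hiff := dualP_eq_self_iff hF (q := q) hr2 hqu hm hig hdeg hg hne' h0
  rw [← hi] at hiff
  have hcast : (((q ^ 2 : ℕ)) : ZMod r) = (q : ZMod r) ^ 2 := by push_cast; rfl
  rw [hcast, orderOf_sq, ← hi] at hdeg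
  have hX1m : (X - 1 : F[X]).Monic := by
    rw [show (X - 1 : F[X]) = X - C 1 by rw [C_1]]
    exact monic_X_sub_C 1
  have hX1i : Irreducible (X - 1 : F[X]) := by
    rw [show (X - 1 : F[X]) = X - C 1 by rw [C_1]]
    exact irreducible_X_sub_C 1
  have hev : g.eval 1 ≠ 0 := by
    intro h1
    have h2 : (X - C 1 : F[X]) ∣ g := dvd_iff_isRoot.2 h1
    rw [C_1] at h2
    have h3 := (hX1i.dvd_irreducible_iff_associated hig).1 h2
    exact hne' (eq_of_monic_of_associated hX1m hm h3).symm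
  by_cases h8 : i % 4 = 2
  · refine ⟨g, hm, ?_, hiff.2 h8, hg, hev⟩
    have h9 : ¬ i % 4 = 0 := by omega
    have hevi : Even i := by
      rw [even_iff_two_dvd]
      omega
    rw [hdeg, if_pos hevi, hc, if_neg h9, if_pos h8]
  · have hdne : dualP hF g ≠ g := fun h9 => h8 (hiff.1 h9)
    have hm' := dualP_monic hF hm h0
    have hig' := irreducible_dualP hF hm h0 hig
    have hdeg' := natDegree_dualP hF h0
    have hcop : IsCoprime g (dualP hF g) := by
      apply (hig.coprime_iff_not_dvd).2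
      intro hdvd
      exact hdne (eq_of_monic_of_dvd_of_natDegree_le hm hm' hdvd (by omega))
    refine ⟨g * dualP hF g, hm.mul hm', ?_, ?_, hcop.mul_dvd hg (dualP_dvd hF hrpos hg), ?_⟩
    · rw [hm.natDegree_mul hm', hdeg', hdeg]
      by_cases h9 : i % 4 = 0
      · have hevi : Even i := by
          rw [even_iff_two_dvd]
          omega
        rw [if_pos hevi, hc, if_pos h9]
        omega
      · have hoddi : ¬ Even i := by
          rw [Nat.even_iff]
          omega
        rw [if_neg hoddi, hc, if_neg h9, if_neg h8]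
        omega
    · rw [dualP_mul, dualP_dualP hF hm h0, mul_comm]
    · rw [eval_mul]
      refine mul_ne_zero hev ?_
      intro h1
      have h2 : (X - C 1 : F[X]) ∣ dualP hF g := dvd_iff_isRoot.2 h1
      rw [C_1] at h2
      have h3 := (hX1i.dvd_irreducible_iff_associated hig').1 h2
      have h4 := eq_of_monic_of_associated hX1m hm' h3
      apply hne'
      rw [← dualP_dualP hF hm h0, ← h4, dualP_X_sub_one hF]

/-- The element with the fewest fixed points. -/
theorem exists_model_E (hF : Fintype.card F = q ^ 2) {r : ℕ} [Fact r.Prime] (hrp : r ≠ p) (hr2 : r ≠ 2)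
    (hrq : ¬ r ∣ q + 1) {i c : ℕ} (hi : i = orderOf (q : ZMod r))
    (hc : c = if i % 4 = 0 then i else if i % 4 = 2 then i / 2 else 2 * i) (hc2 : 2 ≤ c) (hcn : c ≤ n) :
    ∃ M : Matrix (Fin n) (Fin n) F, Preserves q M ∧ M.det = 1 ∧ M ^ r = 1 ∧ (∀ z : F, M ≠ z • 1) ∧
      finrank F (Module.End.eigenspace (Matrix.toLin' M) (1 : F)) ≤ n % c := by
  classical
  have hr : r.Prime := Fact.out
  have hrpos := hr.pos
  have hr0 : (r : F) ≠ 0 := cast_ne_zero_of_ne hr hrp
  have hn : n ≠ 0 := by omega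
  haveI : Nonempty (Fin n) := Fin.pos_iff_nonempty.1 (Nat.pos_of_ne_zero hn)
  obtain ⟨h, hhm, hhd, hhdual, hhdvd, hh1⟩ := exists_poly_E hF hrp hr2 hi hc
  have hX1 : (X - 1 : F[X]) = X - C 1 := by rw [C_1]
  have hX1m : (X - 1 : F[X]).Monic := by
    rw [hX1]
    exact monic_X_sub_C 1
  have hX1d : (X - 1 : F[X]).natDegree = 1 := by
    rw [hX1]
    exact natDegree_X_sub_C 1
  have ht : 1 ≤ n / c := (Nat.one_le_div_iff (by omega)).2 hcn
  set a₀ := n % c with ha₀
  set t := n / c with htdef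
  set f : F[X] := (X - 1) ^ a₀ * h ^ t with hf
  have hfm : f.Monic := (hX1m.pow _).mul (hhm.pow _)
  have hfd : f.natDegree = n := by
    rw [hf, (hX1m.pow _).natDegree_mul (hhm.pow _), natDegree_pow, natDegree_pow, hX1d, hhd, mul_one, mul_comm t c]
    exact Nat.mod_add_div n c
  have hh0 : h.coeff 0 ≠ 0 := coeff_zero_ne_of_dvd hrpos hhdvd
  have hf0 : f.coeff 0 ≠ 0 := by
    rw [coeff_zero_eq_eval_zero, hf, eval_mul, eval_pow, eval_pow, ← coeff_zero_eq_eval_zero h]
    refine mul_ne_zero (pow_ne_zero _ ?_) (pow_ne_zero _ hh0)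
    simp
  have hfdual : dualP hF f = f := by
    rw [hf, dualP_mul, dualP_pow, dualP_pow, dualP_X_sub_one hF, hhdual]
  have hX1dvd : (X - 1 : F[X]) ∣ X ^ r - 1 := by
    rw [← Phi_mul]
    exact dvd_mul_left _ _
  have hfdvd : f ∣ (X ^ r - C 1) ^ (a₀ + t) := by
    rw [C_1, pow_add]
    exact mul_dvd_mul (pow_dvd_pow_of_dvd hX1dvd _) (pow_dvd_pow_of_dvd hhdvd _)
  obtain ⟨M, hP, hMr, hMc⟩ := exists_ss_model (n := n) (p := p) hF hn hfm hfd hf0 hfdual (N := a₀ + t)
    (by omega) hfdvd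
  rw [one_smul] at hMr
  have hdet : M.det = 1 := by
    have h1 : M.det ^ r = 1 := by
      rw [← Matrix.det_pow, hMr, Matrix.det_one]
    have h2 : M.det ^ (q + 1) = 1 := Cfsg.Agent.Lib.Classical.Herm.SU.det_pow_succ hF M hP
    have h3 : orderOf M.det ∣ r.gcd (q + 1) :=
      Nat.dvd_gcd (orderOf_dvd_of_pow_eq_one h1) (orderOf_dvd_of_pow_eq_one h2)
    rw [(hr.coprime_iff_not_dvd).2 hrq] at h3
    exact orderOf_eq_one_iff.1 (Nat.dvd_one.1 h3)
  refine ⟨M, hP, hdet, hMr, ?_, ?_⟩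
  · intro a ha
    have h1 : M.charpoly = (X - C a) ^ n := by
      rw [ha, Matrix.smul_one_eq_diagonal, Matrix.charpoly_diagonal]
      simp
    have h2 : h ∣ (X - C a) ^ n := by
      rw [← h1, hMc, hf]
      exact (dvd_pow_self h (by omega)).trans (dvd_mul_left _ _)
    obtain ⟨j, hj, h3⟩ := (dvd_prime_pow (prime_X_sub_C a) n).1 h2
    have h4 : h = (X - C a) ^ j := eq_of_monic_of_associated hhm ((monic_X_sub_C a).pow j) h3
    have h5 : j = c := by
      rw [← hhd, h4, natDegree_pow, natDegree_X_sub_C, mul_one]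
    have hsep : (X ^ r - C (1 : F) : F[X]).Separable := separable_X_pow_sub_C 1 hr0 one_ne_zero
    have h6 : (X - C a) * (X - C a) ∣ (X ^ r - C (1 : F) : F[X]) := by
      rw [C_1]
      refine Dvd.dvd.trans ?_ hhdvd
      rw [h4, ← sq]
      exact pow_dvd_pow _ (by omega)
    exact not_isUnit_X_sub_C a (hsep.squarefree _ h6)
  · have h1 := LinearMap.finrank_eigenspace_le (Matrix.toLin' M) (1 : F)
    refine h1.trans (le_of_eq ?_)
    rw [Matrix.charpoly_toLin', hMc, hf, rootMultiplicity_mul hfm.ne_zero, hX1, rootMultiplicity_X_sub_C_pow,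
      rootMultiplicity_eq_zero, add_zero]
    rw [IsRoot.def, eval_pow]
    exact pow_ne_zero _ hh1

/-- The case where `r` is odd and does not divide `q + 1`. -/
theorem main_E (hF : Fintype.card F = q ^ 2) {r : ℕ} [Fact r.Prime] (hrp : r ≠ p) (hr2 : r ≠ 2) (hrq : ¬ r ∣ q + 1)
    (hn : n ≠ 0) {m : ℕ} (hmn : m ≤ n) (hrΩ : r ∣ Nat.card (Cfsg.Agent.Lib.Classical.ElusiveU.Count.Om F q n m))
    {i c : ℕ} (hi : i = orderOf (q : ZMod r))
    (hc : c = if i % 4 = 0 then i else if i % 4 = 2 then i / 2 else 2 * i) :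
    LHS F q n m r ↔ (c ≤ m ∧ m % c ≤ n % c) := by
  classical
  have hr : r.Prime := Fact.out
  have hrpos := hr.pos
  have hq2 := two_le_q hF
  have hqr := q_ne_zero_zmod (p := p) hF hrp
  have hc' : c = orderOf (-(q : ZMod r)) := by
    rw [Cfsg.Agent.Lib.Classical.ElusiveU.Count.orderOf_neg hr2 hqr, hc, hi]
  have hc0 : 0 < c := by
    rw [hc']
    have : IsOfFinOrder (-(q : ZMod r)) := by
      rw [isOfFinOrder_iff_pow_eq_one]
      refine ⟨r - 1, by have := hr.two_le; omega, ZMod.pow_card_sub_one_eq_one (neg_ne_zero.2 hqr)⟩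
    exact this.orderOf_pos
  have hc2 : 2 ≤ c := by
    by_contra hlt
    have h1 : c = 1 := by omega
    rw [h1] at hc'
    have h2 := orderOf_eq_one_iff.1 hc'.symm
    apply hrq
    rw [← ZMod.natCast_eq_zero_iff]
    push_cast
    linear_combination -h2
  have hcount : ¬ (m < c ∧ m ≤ n % c) := fun h =>
    Cfsg.Agent.Lib.Classical.ElusiveU.Count.not_dvd_count (p := p) hF hrp hc' hc0 h.1 hmn h.2 hrΩ
  constructor
  · intro H
    by_cases hnc : n < c
    · exfalso
      exact hcount ⟨by omega, by rw [Nat.mod_eq_of_lt hnc]; exact hmn⟩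
    · obtain ⟨M, hP, hdet, hMr, hns, hfix⟩ := exists_model_E (n := n) hF hrp hr2 hrq hi hc hc2 (by omega)
      obtain ⟨W, h1, h2, h3⟩ := lhs_elim H hP hdet (z := 1) (by rw [hMr, one_smul]) hns
      have hT := iso_of_preserves hP
      have hTr : (Matrix.toLin' M) ^ r = 1 := by
        rw [← Matrix.toLin'_pow, hMr, Matrix.toLin'_one]
        rfl
      obtain ⟨a, e, h4, h5⟩ := dim_Q hF hT c (atoms_E hF hrp hr2 hi hc hT hTr) h3 h2
      have h6 := Submodule.finrank_mono (inf_le_right : W ⊓ Module.End.eigenspace (Matrix.toLin' M) (1 : F) ≤ _)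
      have h7 : m % c ≤ n % c := by
        rw [← h1, h4, Nat.add_mul_mod_self_left]
        exact (Nat.mod_le _ _).trans (by omega)
      refine ⟨?_, h7⟩
      by_contra h8
      have h9 : m < c := by omega
      rw [Nat.mod_eq_of_lt h9] at h7
      exact hcount ⟨h9, h7⟩
  · rintro ⟨-, hmod⟩
    apply lhs_intro hF hn
    intro T hT z hTz hz0 hzq _ _
    obtain ⟨l, -, hl⟩ := Nat.exists_mul_mod_eq_one_of_coprime ((hr.coprime_iff_not_dvd).2 hrq) (by omega : 1 < q + 1)
    set w := z ^ l with hw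
    have hw0 : w ≠ 0 := pow_ne_zero _ hz0
    have hwr : w ^ r = z := by
      rw [hw, ← pow_mul, mul_comm, pow_eq_pow_mod _ hzq, hl, pow_one]
    have hwq : w ^ (q + 1) = 1 := by
      rw [hw, ← pow_mul, mul_comm, pow_mul, hzq, one_pow]
    have hainv : (w⁻¹) ^ (q + 1) = 1 := by
      rw [inv_pow, hwq, inv_one]
    have hy : Iso q (w⁻¹ • T) := iso_smul hainv hT
    have hyr : (w⁻¹ • T) ^ r = 1 := pow_smul_inv hw0 hwr hTz
    obtain ⟨μ, hμ, hs, hreal⟩ := exists_real hF hy (fun a => a = 1 ∨ a = c) (fun S hS hSn hS0 => by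
      obtain ⟨W, h1, h2, h3, h4, h5⟩ := atoms_E hF hrp hr2 hi hc hy hyr S hS hSn hS0
      refine ⟨W, h1, h2, h3, h4, ?_⟩
      rcases h5 with ⟨h6, -⟩ | h6
      · exact Or.inl h6
      · exact Or.inr h6) ⊤ (isInv_top _) (top_nd hF)
    rw [finrank_top, finrank_fin_fun] at hs
    obtain ⟨ν, hν, hν'⟩ := comb_E hc2 hμ hs hmn hmod
    obtain ⟨W, -, h2, h3, h4⟩ := hreal ν hν
    exact ⟨W, by rw [h4, hν'], h3, (isInv_smul_iff (inv_ne_zero hw0)).1 h2⟩

end E

end Cfsg.Agent.Lib.Classical.ElusiveU.Main
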